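import Cfsg.Agent.H53.Suz.Coords

/-!
Every involution of `C(z)` is conjugate to `z` or to the standard involution of the radical.
-/

set_option autoImplicit false

namespace Cfsg.Agent.H53.Suz

open H18 H18.OrthPair

variable {G : Type*} [Group G] [Finite G]

namespace Frame

variable {F : Subgroup G} {z g : G} {μ : G → V} (K : Frame F z μ g)
include K

theorem isConj_of_mem_F {x : G} (hx : x ∈ F) (hxx : x * x = 1) (hx1 : x ≠ 1) : IsConj x z := by
  by_cases hxz : x = z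
  · exact hxz ▸ IsConj.refl z
  obtain ⟨c, -, e⟩ := K.S.conj_to_e hx hxx hx1 hxz K.o.hgF K.μb
  exact (isConj_iff.mpr ⟨c, e⟩).trans (isConj_iff.mpr ⟨g, rfl⟩).symm

/-- An involutory action fixes a singular vector and is trivial on its perp modulo it. -/
theorem exists_point {x : G} (hxz : x * z = z * x) (hinv : ∀ v, K.S.ρ x (K.S.ρ x v) = v)
    (hne : ¬ ∀ v, K.S.ρ x v = v) : ∃ p, qV p = 0 ∧ p ≠ 0 ∧ K.S.ρ x p = p ∧
      ∀ y, bV y p = 0 → K.S.ρ x y + y = 0 ∨ K.S.ρ x y + y = p := by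
  set I := Set.range fun v => K.S.ρ x v + v with hI
  have h0 : (0 : V) ∈ I := ⟨0, by simp [K.S.ρ_zero hxz]⟩
  have h4 : I.ncard = 4 := by
    refine (K.S.resid_card hxz hinv).resolve_left fun h1 => hne fun v => ?_
    obtain ⟨a, ha⟩ := Set.ncard_eq_one.mp h1
    change I = {a} at ha
    have e1 : (0 : V) = a := by rw [ha] at h0; exact h0
    have e2 : K.S.ρ x v + v = a := by
      have hv : K.S.ρ x v + v ∈ I := ⟨v, rfl⟩
      rw [ha] at hv
      exact hv
    rw [← e1] at e2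
    calc K.S.ρ x v = K.S.ρ x v + v + v := by rw [add_assoc, add_selfV, add_zero]
      _ = v := by rw [e2, zero_add]
  have hadd : ∀ a ∈ I, ∀ b ∈ I, a + b ∈ I := by
    rintro _ ⟨v, rfl⟩ _ ⟨w, rfl⟩
    exact ⟨v + w, by simp only [K.S.ρ_add hxz]; abel⟩
  have hfix : ∀ a ∈ I, K.S.ρ x a = a := by
    rintro _ ⟨v, rfl⟩
    rw [K.S.ρ_add hxz, hinv, add_comm]
  have hsymm : ∀ u v, bV (K.S.ρ x u) v = bV u (K.S.ρ x v) := fun u v => by
    conv_lhs => rw [← hinv v]
    rw [K.S.ρ_bV hxz]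
  have hiso : ∀ a ∈ I, ∀ b ∈ I, bV a b = 0 := by
    rintro _ ⟨v, rfl⟩ _ ⟨w, rfl⟩
    rw [bV_add, hsymm v, K.S.ρ_add hxz, hinv, bV_comm v (w + _), bV_add, bV_comm v (_ + w),
      bV_add]
    have h2 : ∀ a b : ZMod 2, a + b + (b + a) = 0 := by decide
    exact h2 _ _
  obtain ⟨a, ha, ha0⟩ := Set.exists_ne_of_one_lt_ncard (s := I) (by omega) 0
  obtain ⟨b, hb, hb0⟩ : ∃ b ∈ I, b ∉ ({0, a} : Set V) := by
    refine Set.exists_mem_notMem_of_ncard_lt_ncard ?_
    rw [Set.ncard_pair ha0.symm]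
    omega
  simp only [Set.mem_insert_iff, Set.mem_singleton_iff, not_or] at hb0
  obtain ⟨p, hpI, hp0, hpq⟩ : ∃ p ∈ I, p ≠ 0 ∧ qV p = 0 := by
    rcases two_cases (qV a) with h | h
    · exact ⟨a, ha, ha0, h⟩
    rcases two_cases (qV b) with h' | h'
    · exact ⟨b, hb, hb0.1, h'⟩
    refine ⟨a + b, hadd a ha b hb, fun e => hb0.2 ?_, ?_⟩
    · calc b = a + (a + b) := by rw [← add_assoc, add_selfV, zero_add]
        _ = a := by rw [e, add_zero]
    · rw [qV_add, h, h', hiso a ha b hb]; decide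
  refine ⟨p, hpq, hp0, hfix p hpI, fun y hy => ?_⟩
  by_contra hcon
  rw [not_or] at hcon
  obtain ⟨s, hs⟩ : ∃ s, s = K.S.ρ x y + y := ⟨_, rfl⟩
  rw [← hs] at hcon
  have hsI : s ∈ I := hs ▸ ⟨y, rfl⟩
  obtain ⟨v, hv⟩ := id hpI
  have hIeq : ({0, p, s, p + s} : Set V) = I := by
    refine Set.eq_of_subset_of_ncard_le ?_ ?_
    · intro i hi
      simp only [Set.mem_insert_iff, Set.mem_singleton_iff] at hi
      rcases hi with rfl | rfl | rfl | rfl
      exacts [h0, hpI, hsI, hadd p hpI s hsI]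
    · have hps : p + s ≠ 0 := fun e => hcon.2 (by
        calc s = p + (p + s) := by rw [← add_assoc, add_selfV, zero_add]
          _ = p := by rw [e, add_zero])
      rw [h4, Set.ncard_insert_of_notMem, Set.ncard_insert_of_notMem, Set.ncard_pair]
      · simpa using hp0
      · simp [Ne.symm hcon.2, hcon.1]
      · simp [Ne.symm hp0, Ne.symm hcon.1, Ne.symm hps]
  have hpv : bV p v = 0 := by
    have h1 := K.S.ρ_qV hxz v
    rw [show K.S.ρ x v = p + v by rw [← hv, add_assoc, add_selfV, add_zero], qV_add, hpq] at h1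
    have h2 : ∀ a c : ZMod 2, 0 + a + c = a → c = 0 := by decide
    exact h2 _ _ h1
  have hsv : bV s v = 0 := by
    rw [hs, bV_add, hsymm, add_comm, bV_comm y v, bV_comm y (K.S.ρ x v), ← bV_add,
      add_comm v, show K.S.ρ x v + v = p from hv, bV_comm, hy]
  have hall : ∀ i ∈ I, bV i v = 0 := by
    intro i hi
    rw [← hIeq] at hi
    simp only [Set.mem_insert_iff, Set.mem_singleton_iff] at hi
    rcases hi with rfl | rfl | rfl | rfl
    · simp [bV, bW]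
    · exact hpv
    · exact hsv
    · rw [bV_add, hpv, hsv, add_zero]
  apply hp0
  refine bV_nondeg p fun t => ?_
  rw [← hv]
  have h1 := hall _ ⟨t, rfl⟩
  rw [bV_add, hsymm]
  rw [bV_add, bV_comm _ v, bV_comm t v] at h1
  exact h1

/-- An involution outside `F` is conjugate to one in the radical. -/
theorem to_R {x : G} (hxx : x * x = 1) (hxz : x * z = z * x) (hxF : x ∉ F) :
    ∃ y φ w, IsConj x y ∧ y * y = 1 ∧ K.Co y φ w ∧ φ ≠ 0 := by
  have hinv : ∀ v, K.S.ρ x (K.S.ρ x v) = v := fun v => by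
    rw [← K.S.ρ_mul hxz hxz, hxx, K.S.ρ_one]
  obtain ⟨p, hpq, hp0, hpf, htr⟩ :=
    K.exists_point hxz hinv fun h => hxF (K.S.mem_F_of_ρ hxz h)
  obtain ⟨c, hc, hce⟩ := K.S.exists_to_e hpq hp0
  have hci := Setting.inv_cen hc
  set y := c * x * c⁻¹ with hy
  have hyy : y * y = 1 := by rw [hy, conj_mul, hxx, mul_one, mul_inv_cancel]
  have hcx : c * x * z = z * (c * x) := by rw [mul_assoc, hxz, ← mul_assoc, hc, mul_assoc]
  have hyz : y * z = z * y := by rw [hy, mul_assoc, hci, ← mul_assoc, hcx, mul_assoc]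
  have hρ : ∀ v, K.S.ρ y v = K.S.ρ c (K.S.ρ x (K.S.ρ c⁻¹ v)) := fun v => by
    rw [hy, K.S.ρ_mul hcx hci, K.S.ρ_mul hc hxz]
  have hback : ∀ v, K.S.ρ c (K.S.ρ c⁻¹ v) = v := fun v => by
    rw [← K.S.ρ_mul hc hci, mul_inv_cancel, K.S.ρ_one]
  have hye : K.S.ρ y e₁ = e₁ := by rw [hρ, K.S.ρ_inv hc hce, hpf, hce]
  have hyw : ∀ w, (K.S.ρ y (iW w)).2.1 = w := by
    intro w
    obtain ⟨v, hv⟩ : ∃ v, v = K.S.ρ c⁻¹ (iW w) := ⟨_, rfl⟩
    have hperp : bV v p = 0 := by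
      rw [← K.S.ρ_bV hc, hce, hv, hback, bV_e]; rfl
    have h1 : K.S.ρ y (iW w) + iW w = 0 ∨ K.S.ρ y (iW w) + iW w = e₁ := by
      have e : K.S.ρ y (iW w) + iW w = K.S.ρ c (K.S.ρ x v + v) := by
        rw [K.S.ρ_add hc, hρ, hv, hback]
      rcases htr v hperp with h | h <;> rw [e, h]
      · exact Or.inl (K.S.ρ_zero hc)
      · exact Or.inr hce
    have key : ∀ a b : W, a + b = 0 → a = b := by decide +kernel
    rcases h1 with h | h <;> exact key _ _ (congrArg (fun v : V => v.2.1) h)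
  obtain ⟨r, hr, hrφ⟩ := K.φc_surj (K.φc y)
  have hrz : r⁻¹ * z = z * r⁻¹ := Subgroup.mem_centralizer_singleton_iff.mp (inv_mem hr).2
  have hqF : r⁻¹ * y ∈ F := by
    refine K.S.mem_F_of_ρ (by rw [mul_assoc, hyz, ← mul_assoc, hrz, mul_assoc]) fun v => ?_
    rw [K.S.ρ_mul hrz hyz, K.eq_siegel hyz hye hyw, K.ρ_P' (inv_mem hr), K.φc_inv hr, hrφ,
      siegel_siegel, add_self, siegel_zero]
  have hyF : y ∉ F := fun h => hxF (by
    have := K.S.conj_F hci h
    simpa [hy, mul_assoc] using this)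
  by_cases hqP : r⁻¹ * y ∈ P F z g
  · have hco : K.Co y (K.φc y) (K.wc (r⁻¹ * y)) := ⟨r, hr, _, hqP, hrφ, rfl, by group⟩
    refine ⟨y, _, _, isConj_iff.mpr ⟨c, rfl⟩, hyy, hco, fun e => hyF ?_⟩
    rw [e] at hco
    exact (K.co_zero hco).1.1
  · exfalso
    set q := r⁻¹ * y with hq
    have hq1 : (μ q).2.2 = 1 := by
      rcases two_cases (μ q).2.2 with h | h
      · exact absurd (K.mem_P_iff.mpr ⟨hqF, h⟩) hqP
      · exact h
    have h1 : r⁻¹ * q * r⁻¹⁻¹ * q = (r * r)⁻¹ := by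
      rw [hq, show r⁻¹ * (r⁻¹ * y) * r⁻¹⁻¹ * (r⁻¹ * y) = (r * r)⁻¹ * (y * y) by group, hyy, mul_one]
    have hm := K.S.μ_mul _ (K.S.conj_F hrz hqF) _ hqF
    rw [h1, K.sq_r hr, K.fr_inv, K.μ_fr, K.S.ρ_eq hrz hqF, K.ρ_P' (inv_mem hr), K.φc_inv hr,
      hrφ] at hm
    have h2 := congrArg (fun v : V => v.2.1) hm
    simp only [siegel, hq1, one_smul, Prod.snd_add, Prod.fst_add, Prod.smul_snd, Prod.smul_fst, e₁,
      smul_zero] at h2
    have key : ∀ a b : W, 0 = a + b + a → b = 0 := by decide +kernel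
    have h0 : K.φc r = 0 := hrφ.trans (key _ _ h2)
    apply hyF
    have e : y = r * q := by rw [hq, mul_inv_cancel_left]
    rw [e]
    exact mul_mem (K.four_le_F (K.φc_eq_zero hr h0)) hqF

/-- Involutions of the radical. -/
theorem R_classes {t y : G} {φ w : W} (ht : K.Co t φ₀ w₀) (hy : K.Co y φ w) (hyy : y * y = 1)
    (hφ : φ ≠ 0) : IsConj y z ∨ IsConj y t := by
  have h := K.co_sq hy
  rw [hyy, ← K.fr_zero] at h
  obtain ⟨h1, h2⟩ := K.fr_inj h
  have key : ∀ a b : ZMod 2, 0 = a + b → b = a := by decide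
  have hqw := key _ _ h1
  have hqφ := key _ _ h2
  rcases two_cases (bW φ w) with hB | hB <;> rw [hB] at hqw hqφ
  · left
    -- reduce to coordinates `(φ, 0)`
    have h0 : ∀ y', K.Co y' φ 0 → y' * y' = 1 → IsConj y' z := by
      intro y' hy' hyy'
      obtain ⟨r, hr, p, hp, hφr, hwp, e⟩ := hy'
      have hp4 := K.wc_eq_zero hp hwp
      have hF' : y' ∈ F' F g := e ▸ mul_mem hr.1 (K.four_le_F' hp4)
      obtain ⟨y₀, hy₀, e0⟩ := hF'
      have e0' : g * y₀ * g⁻¹ = y' := e0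
      have hy1 : y' ≠ 1 := fun e1 => by
        have hc : K.Co y' φ 0 := ⟨r, hr, p, hp, hφr, hwp, e⟩
        rw [e1] at hc
        exact hφ (K.co_uniq hc (K.co_four (one_mem _))).1
      have hyy0 : y₀ * y₀ = 1 := by
        have : g * (y₀ * y₀) * g⁻¹ = 1 := by rw [← hyy', ← e0']; group
        exact conj_eq_one_iff.mp this
      refine (isConj_iff.mpr ⟨g, e0'⟩).symm.trans (K.isConj_of_mem_F hy₀ hyy0 fun e1 => hy1 ?_)
      rw [← e0', e1]; group
    rcases no_singular_plane φ w hφ hqφ hqw hB with rfl | rfl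
    · exact h0 y hy hyy
    · obtain ⟨u, hu, hμ⟩ := K.S.μ_surj f₁
      have h3 := K.co_u hu hμ hy
      rw [add_self] at h3
      exact (isConj_iff.mpr ⟨u, rfl⟩).trans (h0 _ h3 (by rw [conj_mul, hyy]; simp))
  · right
    obtain ⟨a, ha, b, hb, e1⟩ := nonsing_transitive φ hqφ
    obtain ⟨c, hc⟩ := K.exists_lev ha hb
    have h3 := K.co_lev hc (by simp [rW, bW]) hy
    rw [e1] at h3
    obtain ⟨a', ha', b', hb', e2, e3⟩ := pair_transitive (rW a (rW b w))
      (by rw [rW_iso a _ ha, rW_iso b _ hb, hqw])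
      (by rw [← e1, bW_rW a ha, bW_rW b hb, hB])
    obtain ⟨d, hd⟩ := K.exists_lev ha' hb'
    have h4 := K.co_lev hd (by simp [rW, bW]) h3
    rw [e2, e3] at h4
    obtain ⟨p, -, e4⟩ := K.std_conj ht h4
    exact (isConj_iff.mpr ⟨d * c, by group⟩).trans (isConj_iff.mpr ⟨p, e4⟩).symm

/-- The involutions of `C(z)`. -/
theorem classes {t x : G} (ht : K.Co t φ₀ w₀) (hxx : x * x = 1) (hx1 : x ≠ 1)
    (hxz : x * z = z * x) : IsConj x z ∨ IsConj x t := by
  by_cases hxF : x ∈ F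
  · exact Or.inl (K.isConj_of_mem_F hxF hxx hx1)
  obtain ⟨y, φ, w, hc, hyy, hco, hφ⟩ := K.to_R hxx hxz hxF
  exact (K.R_classes ht hco hyy hφ).imp hc.trans hc.trans

end Frame

end Cfsg.Agent.H53.Suz
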