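import Cfsg.Agent.H53.Suz.Radical

/-!
Coordinates on the radical of the four-group.
-/

set_option autoImplicit false

namespace Cfsg.Agent.H53.Suz

open H18 H18.OrthPair

variable {G : Type*} [Group G] [Finite G]

namespace Frame

variable {F : Subgroup G} {z g : G} {μ : G → V} (K : Frame F z μ g)
include K

/-- `x` has coordinates `(φ, w)`. -/
def Co (x : G) (φ w : W) : Prop :=
  ∃ r ∈ P' F z g, ∃ p ∈ P F z g, K.φc r = φ ∧ K.wc p = w ∧ x = r * p

theorem wc_four {x : G} (hx : x ∈ four z g) : K.wc x = 0 := (K.μ_four hx).1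

theorem co_r {r : G} (hr : r ∈ P' F z g) : K.Co r (K.φc r) 0 :=
  ⟨r, hr, 1, one_mem _, rfl, K.wc_four (one_mem _), (mul_one r).symm⟩

theorem co_p {p : G} (hp : p ∈ P F z g) : K.Co p 0 (K.wc p) :=
  ⟨1, one_mem _, p, hp, K.φc_four (one_mem _), rfl, (one_mul p).symm⟩

theorem co_four {x : G} (hx : x ∈ four z g) : K.Co x 0 0 := by
  have h := K.co_p (K.four_le_P hx)
  rwa [K.wc_four hx] at h

theorem co_mem {x : G} {φ w : W} (h : K.Co x φ w) : x ∈ R F z g := by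
  obtain ⟨r, hr, p, hp, -, -, rfl⟩ := h
  exact mul_mem (Subgroup.mem_sup_left hr) (Subgroup.mem_sup_right hp)

theorem co_cen {x : G} {φ w : W} (h : K.Co x φ w) :
    x * z = z * x ∧ x * bb z g = bb z g * x :=
  K.o.mem_CV_iff.mp (K.o.R_le_CV (K.co_mem h))

theorem co_mul {x y : G} {φ φ' w w' : W} (hx : K.Co x φ w) (hy : K.Co y φ' w') :
    K.Co (x * y) (φ + φ') (w + w') := by
  obtain ⟨r, hr, p, hp, rfl, rfl, rfl⟩ := hx
  obtain ⟨r', hr', p', hp', rfl, rfl, rfl⟩ := hy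
  have e : r'⁻¹ * p * r'⁻¹⁻¹ * p⁻¹ ∈ four z g := by
    rw [K.comm_rp (inv_mem hr') hp]; exact K.fr_mem _ _
  refine ⟨r * r', mul_mem hr hr', (r'⁻¹ * p * r'⁻¹⁻¹ * p⁻¹) * (p * p'),
    mul_mem (K.four_le_P e) (mul_mem hp hp'), K.φc_mul hr hr', ?_, by group⟩
  rw [K.wc_mul (K.four_le_F e) (mul_mem hp.1 hp'.1), K.wc_four e, zero_add, K.wc_mul hp.1 hp'.1]

theorem co_inv {x : G} {φ w : W} (hx : K.Co x φ w) : K.Co x⁻¹ φ w := by
  obtain ⟨r, hr, p, hp, rfl, rfl, rfl⟩ := hx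
  rw [mul_inv_rev]
  have h1 : K.Co p⁻¹ 0 (K.wc p) := by
    have h := K.co_p (inv_mem hp)
    rwa [show K.wc p⁻¹ = K.wc p by rw [wc, K.S.μ_inv hp.1]] at h
  have h2 : K.Co r⁻¹ (K.φc r) 0 := by
    have h := K.co_r (inv_mem hr)
    rwa [K.φc_inv hr] at h
  have h := K.co_mul h1 h2
  rwa [zero_add, add_zero] at h

theorem exists_co {x : G} (hx : x ∈ R F z g) : ∃ φ w, K.Co x φ w := by
  have hle : R F z g ≤ subgroupOfMulClosed {x | ∃ φ w, K.Co x φ w} ⟨0, 0, K.co_four (one_mem _)⟩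
      (fun a ⟨φ, w, ha⟩ b ⟨φ', w', hb⟩ => ⟨φ + φ', w + w', K.co_mul ha hb⟩) :=
    sup_le (fun r hr => ⟨_, _, K.co_r hr⟩) (fun p hp => ⟨_, _, K.co_p hp⟩)
  exact hle hx

theorem co_ρ {x : G} {φ w : W} (hx : K.Co x φ w) (v : V) : K.S.ρ x v = siegel φ v := by
  obtain ⟨r, hr, p, hp, rfl, rfl, rfl⟩ := hx
  rw [K.S.ρ_mul (Subgroup.mem_centralizer_singleton_iff.mp hr.2) (K.S.h.comm_x p hp.1),
    K.S.ρ_of_mem hp.1, K.ρ_P' hr]

theorem co_zero {x : G} {w : W} (hx : K.Co x 0 w) : x ∈ P F z g ∧ K.wc x = w := by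
  obtain ⟨r, hr, p, hp, hφ, rfl, rfl⟩ := hx
  have h4 := K.φc_eq_zero hr hφ
  refine ⟨mul_mem (K.four_le_P h4) hp, ?_⟩
  rw [K.wc_mul (K.four_le_F h4) hp.1, K.wc_four h4, zero_add]

theorem co_uniq {x : G} {φ φ' w w' : W} (hx : K.Co x φ w) (hx' : K.Co x φ' w') :
    φ = φ' ∧ w = w' := by
  have e1 : φ = φ' := by
    have h1 := congrArg (fun v : V => v.2.1) ((K.co_ρ hx f₁).symm.trans (K.co_ρ hx' f₁))
    simpa [siegel_f] using h1
  subst e1
  refine ⟨rfl, ?_⟩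
  have h2 := K.co_mul (K.co_inv hx) hx'
  rw [inv_mul_cancel, add_self] at h2
  have h3 := (K.co_zero h2).2
  rw [K.wc_four (one_mem _)] at h3
  calc w = w + (w + w') := by rw [← h3, add_zero]
    _ = w' := by rw [← add_assoc, add_self, zero_add]

theorem co_diff {x y : G} {φ w : W} (hx : K.Co x φ w) (hy : K.Co y φ w) :
    x⁻¹ * y ∈ four z g := by
  have h := K.co_mul (K.co_inv hx) hy
  rw [add_self, add_self] at h
  exact K.wc_eq_zero (K.co_zero h).1 (K.co_zero h).2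

theorem co_sq {x : G} {φ w : W} (hx : K.Co x φ w) :
    x * x = fr z g (bW φ w + qW w) (bW φ w + qW φ) := by
  obtain ⟨r, hr, p, hp, rfl, rfl, rfl⟩ := hx
  have e := K.comm_rp (inv_mem hr) hp
  rw [K.φc_inv hr] at e
  calc r * p * (r * p) = r * r * (r⁻¹ * p * r⁻¹⁻¹ * p⁻¹) * (p * p) := by group
    _ = _ := by
      rw [e, K.sq_r hr, K.sq_p hp, K.fr_mul, K.fr_mul, zero_add, add_zero, add_comm (qW (K.φc r))]

theorem co_comm {x y : G} {φ φ' w w' : W} (hx : K.Co x φ w) (hy : K.Co y φ' w') :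
    x * y * x⁻¹ * y⁻¹ = fr z g (bW φ w' + bW φ' w + bW w w') (bW φ w' + bW φ' w + bW φ φ') := by
  rw [show x * y * x⁻¹ * y⁻¹ = x * y * (x * y) * (y⁻¹ * ((x * x)⁻¹ * y⁻¹)) by group,
    K.co_sq (K.co_mul hx hy), K.co_sq hx, K.fr_inv,
    ← K.central (inv_mem (K.o.R_le_CV (K.co_mem hy))) (K.fr_mem _ _), ← mul_assoc y⁻¹,
    ← mul_inv_rev y y, K.co_sq hy, K.fr_inv, K.fr_mul, K.fr_mul]
  have hb : bW (φ + φ') (w + w') = bW φ w + bW φ w' + (bW φ' w + bW φ' w') := by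
    rw [bW_add, bW_comm φ (w + w'), bW_comm φ' (w + w'), bW_add, bW_add, bW_comm w φ, bW_comm w' φ,
      bW_comm w φ', bW_comm w' φ']
  rw [hb, qW_add, qW_add]
  have key : ∀ a b c d x y e : ZMod 2,
      a + b + (c + d) + (x + y + e) + (d + y + (a + x)) = b + c + e := by decide
  rw [key, key]

theorem co_comm_mem {x y : G} (hx : x ∈ R F z g) (hy : y ∈ R F z g) :
    x * y * x⁻¹ * y⁻¹ ∈ four z g := by
  obtain ⟨φ, w, hx'⟩ := K.exists_co hx
  obtain ⟨φ', w', hy'⟩ := K.exists_co hy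
  rw [K.co_comm hx' hy']
  exact K.fr_mem _ _

theorem co_sq_mem {x : G} (hx : x ∈ R F z g) : x * x ∈ four z g := by
  obtain ⟨φ, w, hx'⟩ := K.exists_co hx
  rw [K.co_sq hx']
  exact K.fr_mem _ _

theorem co_lev {c x : G} {h : W → W} (hc : K.IsLev c h) (h0 : h 0 = 0) {φ w : W}
    (hx : K.Co x φ w) : K.Co (c * x * c⁻¹) (h φ) (h w) := by
  obtain ⟨r, hr, p, hp, rfl, rfl, rfl⟩ := hx
  exact ⟨c * r * c⁻¹, K.CV_P' hc.1 hr, c * p * c⁻¹, (K.lev_P hc hp).1, K.lev_φc hc h0 hr,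
    (K.lev_P hc hp).2, by group⟩

/-- Conjugation by an element of `F` over `f₁`. -/
theorem co_u {u x : G} (hu : u ∈ F) (hμ : μ u = f₁) {φ w : W} (hx : K.Co x φ w) :
    K.Co (u * x * u⁻¹) φ (φ + w) := by
  obtain ⟨r, hr, p, hp, rfl, rfl, rfl⟩ := hx
  have hμi : μ u⁻¹ = f₁ := by rw [K.S.μ_inv hu, hμ]
  obtain ⟨p', hp', hw, e⟩ := K.conj_over_f (inv_mem hu) hμi hr
  have e1 : u * r * u⁻¹ = p' * r := by
    calc u * r * u⁻¹ = u * (r * u⁻¹ * r⁻¹) * r := by group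
      _ = p' * r := by rw [e]; group
  have h1 : K.Co (u * r * u⁻¹) (K.φc r) (K.φc r) := by
    have h := K.co_mul (K.co_p hp') (K.co_r hr)
    rwa [zero_add, add_zero, hw, ← e1] at h
  have h2 : K.Co (u * p * u⁻¹) 0 (K.wc p) := by
    have e2 : u * p * u⁻¹ = tw z (bV (μ u) (μ p)) * p := by rw [← K.S.μ_comm hu hp.1]; group
    have h := K.co_mul (K.co_four (K.tw_z_mem (bV (μ u) (μ p)))) (K.co_p hp)
    rwa [← e2, zero_add, zero_add] at h
  have h := K.co_mul h1 h2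
  rwa [add_zero, show u * r * u⁻¹ * (u * p * u⁻¹) = u * (r * p) * u⁻¹ by group] at h

theorem card_R_le : Nat.card (R F z g) ≤ 1024 := by
  choose φ w h using fun x : R F z g => K.exists_co x.2
  let f : R F z g →* Multiplicative (W × W) :=
    MonoidHom.mk' (fun x => Multiplicative.ofAdd (φ x, w x)) fun x y => by
      obtain ⟨e1, e2⟩ := K.co_uniq (h (x * y)) (K.co_mul (h x) (h y))
      rw [← ofAdd_add, Prod.mk_add_mk, e1, e2]
  have hk : Nat.card f.ker ≤ 4 := by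
    rw [← K.card_four]
    refine Nat.card_le_card_of_injective (fun x => ⟨((x : R F z g) : G), ?_⟩) ?_
    · have e := congrArg Multiplicative.toAdd (MonoidHom.mem_ker.mp x.2)
      have e1 : φ x = 0 := congrArg Prod.fst e
      have e2 : w x = 0 := congrArg Prod.snd e
      have h' := h (x : R F z g)
      rw [e1, e2] at h'
      exact K.wc_eq_zero (K.co_zero h').1 (K.co_zero h').2
    · intro x y e
      have e' := congrArg (fun a : four z g => (a : G)) e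
      exact Subtype.ext (Subtype.ext e')
  have h1 := f.ker.card_mul_index
  rw [Subgroup.index_ker] at h1
  have h2 : Nat.card f.range ≤ 256 := by
    refine (Subgroup.card_le_card_group _).trans ?_
    rw [Nat.card_congr Multiplicative.toAdd]
    simp only [W, Nat.card_prod, Nat.card_zmod]
    norm_num
  rw [← h1]
  exact (Nat.mul_le_mul hk h2).trans (by norm_num)

/-- Elements with the standard coordinates are all conjugate. -/
theorem std_conj {t y : G} (ht : K.Co t φ₀ w₀) (hy : K.Co y φ₀ w₀) :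
    ∃ p ∈ P F z g, p * t * p⁻¹ = y := by
  obtain ⟨α, β, e⟩ := K.exists_fr (K.co_diff ht hy)
  obtain ⟨v, h1, h2⟩ := solve_pair φ₀ w₀ (by decide) (by decide) (by decide) α β
  obtain ⟨p, hp, -, rfl⟩ := K.wc_surj v
  refine ⟨p, hp, ?_⟩
  have h3 := K.co_comm (K.co_p hp) ht
  rw [show bW 0 w₀ + bW φ₀ (K.wc p) + bW (K.wc p) w₀ = α by
      rw [bW_comm (K.wc p) w₀, ← h1]; simp [bW],
    show bW 0 w₀ + bW φ₀ (K.wc p) + bW 0 φ₀ = β by rw [← h2]; simp [bW], ← e] at h3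
  calc p * t * p⁻¹ = p * t * p⁻¹ * t⁻¹ * t := by group
    _ = t⁻¹ * y * t := by rw [h3]
    _ = y := by
      rw [← K.central (K.o.R_le_CV (K.co_mem ht)) (K.co_diff ht hy)]; group

end Frame

end Cfsg.Agent.H53.Suz
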