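import Mathlib

/-!
Concrete six-dimensional elliptic quadratic space over the field with two elements, written as
hyperbolic line plus four-dimensional elliptic space, and the finite facts needed about it.
-/

set_option autoImplicit false
set_option synthInstance.maxSize 20000
set_option synthInstance.maxHeartbeats 400000

namespace Cfsg.Agent.H53.Suz

/-- The four-dimensional part. -/
abbrev W : Type := ZMod 2 × ZMod 2 × ZMod 2 × ZMod 2

/-- The six-dimensional space: coefficient of `e₁`, four-dimensional part, coefficient of `f₁`. -/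
abbrev V : Type := ZMod 2 × W × ZMod 2

/-- The form on `W`. -/
def qW (x : W) : ZMod 2 :=
  x.1 * x.2.1 + (x.2.2.1 * x.2.2.1 + x.2.2.1 * x.2.2.2 + x.2.2.2 * x.2.2.2)

/-- Its polar. -/
def bW (x y : W) : ZMod 2 :=
  x.1 * y.2.1 + x.2.1 * y.1 + (x.2.2.1 * y.2.2.2 + x.2.2.2 * y.2.2.1)

/-- The form on `V`. -/
def qV (x : V) : ZMod 2 := x.1 * x.2.2 + qW x.2.1

/-- Its polar. -/
def bV (x y : V) : ZMod 2 := x.1 * y.2.2 + x.2.2 * y.1 + bW x.2.1 y.2.1

/-- The isotropic basis vector. -/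
def e₁ : V := (1, 0, 0)

/-- Its partner. -/
def f₁ : V := (0, 0, 1)

/-- Embedding of `W`. -/
def iW (w : W) : V := (0, w, 0)

/-- Reflection of `W`. -/
def rW (v x : W) : W := x + bW x v • v

/-- Reflection of `V`. -/
def rV (v x : V) : V := x + bV x v • v

/-- The transvection attached to `φ ∈ W` at the point `e₁`. -/
def siegel (φ : W) (x : V) : V := (x.1 + x.2.2 * qW φ + bW x.2.1 φ, x.2.1 + x.2.2 • φ, x.2.2)

theorem two_cases : ∀ a : ZMod 2, a = 0 ∨ a = 1 := by decide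

theorem add_self (x : W) : x + x = 0 := by revert x; decide

theorem add_selfV (x : V) : x + x = 0 := by revert x; decide +kernel

theorem bW_add (x y z : W) : bW (x + y) z = bW x z + bW y z := by
  simp only [bW, Prod.fst_add, Prod.snd_add]; ring

theorem bW_comm (x y : W) : bW x y = bW y x := by simp only [bW]; ring

theorem qW_add (x y : W) : qW (x + y) = qW x + qW y + bW x y := by
  simp only [qW, bW, Prod.fst_add, Prod.snd_add]
  have h2 : (2 : ZMod 2) = 0 := rfl
  linear_combination (x.2.2.1 * y.2.2.1 + x.2.2.2 * y.2.2.2) * h2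

theorem qV_add (x y : V) : qV (x + y) = qV x + qV y + bV x y := by
  simp only [qV, bV, Prod.fst_add, Prod.snd_add, qW_add]
  ring

theorem bV_add (x y z : V) : bV (x + y) z = bV x z + bV y z := by
  simp only [bV, Prod.fst_add, Prod.snd_add, bW_add]; ring

theorem bV_comm (x y : V) : bV x y = bV y x := by simp only [bV, bW_comm]; ring

theorem bW_self (x : W) : bW x x = 0 := by revert x; decide

theorem bV_self (x : V) : bV x x = 0 := by revert x; decide +kernel

theorem bV_nondeg : ∀ x : V, (∀ y : V, bV x y = 0) → x = 0 := by decide +kernel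

theorem bW_nondeg : ∀ x : W, (∀ y : W, bW x y = 0) → x = 0 := by decide +kernel

theorem decomp (x : V) : x = x.1 • e₁ + iW x.2.1 + x.2.2 • f₁ := by
  revert x; decide +kernel

theorem rW_iso : ∀ a x : W, qW a = 1 → qW (rW a x) = qW x := by decide +kernel

theorem rV_iW (a : W) (x : V) : rV (iW a) x = (x.1, rW a x.2.1, x.2.2) := by
  revert a x; decide +kernel

theorem qV_iW (a : W) : qV (iW a) = qW a := by simp [qV, iW]

theorem bV_e (x : V) : bV x e₁ = x.2.2 := by simp [bV, e₁, bW]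

theorem bV_f (x : V) : bV x f₁ = x.1 := by simp [bV, f₁, bW]

theorem siegel_e (φ : W) : siegel φ e₁ = e₁ := by revert φ; decide

theorem siegel_f (φ : W) : siegel φ f₁ = (qW φ, φ, 1) := by revert φ; decide

theorem siegel_siegel (φ ψ : W) (x : V) : siegel φ (siegel ψ x) = siegel (φ + ψ) x := by
  simp only [siegel, qW_add]
  have hb : bW (x.2.1 + x.2.2 • ψ) φ = bW x.2.1 φ + x.2.2 * bW ψ φ := by
    simp only [bW, Prod.fst_add, Prod.snd_add, Prod.smul_fst, Prod.smul_snd, smul_eq_mul]; ring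
  have hb' : bW x.2.1 (φ + ψ) = bW x.2.1 φ + bW x.2.1 ψ := by
    rw [bW_comm, bW_add, bW_comm, bW_comm ψ]
  rw [hb, hb', bW_comm ψ φ]
  refine Prod.ext ?_ (Prod.ext ?_ rfl)
  · ring
  · simp only [smul_add]; abel

theorem siegel_zero (x : V) : siegel 0 x = x := by revert x; decide +kernel

/-- Every singular vector is carried to `e₁` by two reflections. -/
theorem point_transitive : ∀ p : V, qV p = 0 → p ≠ 0 →
    ∃ a : V, qV a = 1 ∧ ∃ b : V, qV b = 1 ∧ rV a (rV b p) = e₁ := by decide +kernel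

theorem line_move : ∀ w : W, qW w = 0 → w ≠ 0 →
    ∃ a : W, qW a = 1 ∧ ∃ b : W, qW b = 1 ∧ bW w (rW a (rW b w)) = 1 := by decide +kernel

theorem fixed_of_stab : ∀ a k : W, qW a = 1 →
    (∀ c : W, qW c = 1 → bW c a = 0 → ∀ d : W, qW d = 1 → bW d a = 0 → rW c (rW d k) = k) →
    k = 0 ∨ k = a := by decide +kernel

theorem nonsing_span : ∀ w : W, w = 0 ∨ qW w = 1 ∨
    ∃ a : W, qW a = 1 ∧ qW (w + a) = 1 := by decide +kernel

/-- The standard pair. -/
def φ₀ : W := (0, 0, 1, 0)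

/-- The standard pair, second member. -/
def w₀ : W := (0, 0, 0, 1)

theorem nonsing_transitive : ∀ φ : W, qW φ = 1 →
    ∃ a : W, qW a = 1 ∧ ∃ b : W, qW b = 1 ∧ rW a (rW b φ) = φ₀ := by decide +kernel

theorem pair_transitive : ∀ w : W, qW w = 1 → bW φ₀ w = 1 →
    ∃ a : W, qW a = 1 ∧ ∃ b : W, qW b = 1 ∧ rW a (rW b φ₀) = φ₀ ∧ rW a (rW b w) = w₀ := by
  decide +kernel

theorem bW_rW : ∀ a : W, qW a = 1 → ∀ x y : W, bW (rW a x) (rW a y) = bW x y := by decide +kernel

theorem no_singular_plane : ∀ φ w : W, φ ≠ 0 → qW φ = 0 → qW w = 0 → bW φ w = 0 →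
    w = 0 ∨ w = φ := by decide +kernel

theorem solve_pair : ∀ φ w : W, qW φ = 1 → qW w = 1 → bW φ w = 1 → ∀ α β : ZMod 2,
    ∃ v : W, bW φ v + bW w v = α ∧ bW φ v = β := by decide +kernel

theorem image_siegel : ∀ x : V, siegel φ₀ x + x = 0 ∨ siegel φ₀ x + x = e₁ ∨
    qV (siegel φ₀ x + x) = 1 := by decide +kernel

theorem plane_perp : ∀ x : W, qW x = 0 → bW x φ₀ = 0 → bW x w₀ = 0 →
    x = 0 ∨ x = (1, 0, 0, 0) ∨ x = (0, 1, 0, 0) := by decide +kernel

theorem partner : ∀ x : W, qW x = 0 → bW x φ₀ = 0 → bW x w₀ = 0 → bW x (1, 0, 0, 0) = 1 →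
    x = (0, 1, 0, 0) := by decide +kernel

theorem partner' : ∀ x : W, qW x = 0 → bW x φ₀ = 0 → bW x w₀ = 0 → bW x (0, 1, 0, 0) = 1 →
    x = (1, 0, 0, 0) := by decide +kernel

theorem rW_swap : rW (1, 1, 0, 0) (1, 0, 0, 0) = ((0, 1, 0, 0) : W) ∧
    rW (1, 1, 0, 0) (0, 1, 0, 0) = ((1, 0, 0, 0) : W) ∧
    rW (1, 1, 0, 0) φ₀ = φ₀ ∧ rW (1, 1, 0, 0) w₀ = w₀ := by decide

theorem W_basis : ∀ x : W, x = x.1 • ((1, 0, 0, 0) : W) + x.2.1 • ((0, 1, 0, 0) : W) +
    x.2.2.1 • φ₀ + x.2.2.2 • w₀ := by decide +kernel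

end Cfsg.Agent.H53.Suz
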