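import Cfsg.Agent.H53.Suz.Setting

/-!
Two orthogonal conjugates of `z`: the common part of their singular groups, the maps onto the
four-dimensional space, and lifts of isometries of that space.
-/

set_option autoImplicit false

namespace Cfsg.Agent.H53.Suz

open H18 H18.OrthPair

variable {G : Type*} [Group G]

/-- A setting with a chosen conjugate above `e₁`. -/
structure Frame (F : Subgroup G) (z : G) (μ : G → V) (g : G) : Prop where
  S : Setting F z μ
  o : OrthPair F z g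
  μb : μ (bb z g) = e₁

/-- An element `z ^ a * b ^ c` of the four-group. -/
def fr (z g : G) (a c : ZMod 2) : G := tw z a * tw (bb z g) c

namespace Frame

variable {F : Subgroup G} {z g : G} {μ : G → V} (K : Frame F z μ g)
include K

/-- The four-dimensional image of an element of `F`. -/
abbrev wc (_K : Frame F z μ g) (p : G) : W := (μ p).2.1

/-- The translation part of the action. -/
noncomputable abbrev φc (c : G) : W := (K.S.ρ c f₁).2.1

variable [Finite G]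

theorem bb_sq : bb z g * bb z g = 1 := K.o.h'.xx

theorem fr_mem (a c : ZMod 2) : fr z g a c ∈ four z g := by
  rcases two_cases a with rfl | rfl <;> rcases two_cases c with rfl | rfl <;>
    simp only [fr, tw_zero, tw_one, one_mul, mul_one]
  · exact one_mem _
  · exact K.o.b_mem_four
  · exact K.o.z_mem_four
  · exact mul_mem K.o.z_mem_four K.o.b_mem_four

theorem tw_z_mem (a : ZMod 2) : tw z a ∈ four z g := Subgroup.mem_sup_left (tw_mem z a)

theorem tw_b_mem (c : ZMod 2) : tw (bb z g) c ∈ four z g := Subgroup.mem_sup_right (tw_mem _ c)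

theorem exists_fr {x : G} (hx : x ∈ four z g) : ∃ a c, x = fr z g a c := by
  rcases K.o.mem_four_iff.mp hx with rfl | rfl | rfl | rfl
  · exact ⟨0, 0, by simp [fr, tw_zero]⟩
  · exact ⟨1, 0, by simp [fr, tw_zero, tw_one]⟩
  · exact ⟨0, 1, by simp [fr, tw_zero, tw_one]⟩
  · exact ⟨1, 1, by simp [fr, tw_one]⟩

theorem four_le_F : four z g ≤ F := sup_le K.S.h.zp_le (Subgroup.zpowers_le.mpr K.o.hgF)

theorem four_le_F' : four z g ≤ F' F g :=
  sup_le (Subgroup.zpowers_le.mpr K.o.hzF) K.o.h'.zp_le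

theorem four_le_P : four z g ≤ P F z g := fun x hx =>
  ⟨K.four_le_F hx, by
    obtain ⟨a, c, rfl⟩ := K.exists_fr hx
    refine mul_mem ?_ ?_
    · refine Subgroup.zpowers_le.mpr ?_ (tw_mem z a)
      exact Subgroup.mem_centralizer_singleton_iff.mpr K.o.zb
    · refine Subgroup.zpowers_le.mpr ?_ (tw_mem _ c)
      exact Subgroup.mem_centralizer_singleton_iff.mpr rfl⟩

theorem four_le_P' : four z g ≤ P' F z g := fun _ hx =>
  ⟨K.four_le_F' hx, Subgroup.mem_centralizer_singleton_iff.mpr (K.S.h.comm_x _ (K.four_le_F hx))⟩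

theorem central {c x : G} (hc : c ∈ Subgroup.centralizer (four z g : Set G)) (hx : x ∈ four z g) :
    c * x = x * c := (hc x hx).symm

theorem four_comm {x y : G} (hx : x ∈ four z g) (hy : y ∈ four z g) : x * y = y * x :=
  K.central (K.o.P_le (K.four_le_P hx)) hy

theorem fr_mul (a c a' c' : ZMod 2) :
    fr z g a c * fr z g a' c' = fr z g (a + a') (c + c') := by
  simp only [fr, tw_add K.S.h.xx, tw_add K.bb_sq]
  calc tw z a * tw (bb z g) c * (tw z a' * tw (bb z g) c')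
      = tw z a * (tw (bb z g) c * tw z a') * tw (bb z g) c' := by group
    _ = tw z a * (tw z a' * tw (bb z g) c) * tw (bb z g) c' := by
        rw [K.four_comm (K.tw_b_mem c) (K.tw_z_mem a')]
    _ = _ := by group

omit [Finite G] in
theorem fr_zero : fr z g 0 0 = 1 := by simp [fr, tw_zero]

theorem fr_inv (a c : ZMod 2) : (fr z g a c)⁻¹ = fr z g a c := by
  refine inv_eq_of_mul_eq_one_right ?_
  rw [K.fr_mul]
  have h : ∀ x : ZMod 2, x + x = 0 := by decide
  rw [h, h, K.fr_zero]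

omit [Finite G] in
theorem μ_tw_b (c : ZMod 2) : μ (tw (bb z g) c) = c • e₁ := by
  rcases two_cases c with rfl | rfl
  · rw [tw_zero, zero_smul, K.S.μ_one]
  · rw [tw_one, one_smul, K.μb]

theorem μ_fr (a c : ZMod 2) : μ (fr z g a c) = c • e₁ := by
  rw [fr, K.S.μ_mul _ (K.four_le_F (K.tw_z_mem a)) _ (K.four_le_F (K.tw_b_mem c)),
    (K.S.μ_zero _ (K.four_le_F (K.tw_z_mem a))).mpr (tw_mem z a), zero_add, K.μ_tw_b]

theorem fr_inj {a c a' c' : ZMod 2} (e : fr z g a c = fr z g a' c') : a = a' ∧ c = c' := by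
  have h1 := congrArg μ e
  rw [K.μ_fr, K.μ_fr] at h1
  have hc : c = c' := by simpa [e₁] using congrArg Prod.fst h1
  subst hc
  exact ⟨tw_inj K.S.h.xne (mul_right_cancel e), rfl⟩

theorem μ_four {x : G} (hx : x ∈ four z g) : (μ x).2.1 = 0 ∧ (μ x).2.2 = 0 := by
  obtain ⟨a, c, rfl⟩ := K.exists_fr hx
  rw [K.μ_fr]
  exact ⟨by simp [e₁], by simp [e₁]⟩

omit [Finite G] in
theorem mem_P_iff {p : G} : p ∈ P F z g ↔ p ∈ F ∧ (μ p).2.2 = 0 := by
  rw [Subgroup.mem_inf, Subgroup.mem_centralizer_singleton_iff]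
  refine and_congr_right fun hp => ?_
  rw [K.S.commute_iff hp K.o.hgF, K.μb, bV_e]

omit [Finite G] in
theorem P_surj (v : V) (hv : v.2.2 = 0) : ∃ p ∈ P F z g, μ p = v := by
  obtain ⟨p, hp, rfl⟩ := K.S.μ_surj v
  exact ⟨p, K.mem_P_iff.mpr ⟨hp, hv⟩, rfl⟩

omit [Finite G] in
theorem wc_surj (w : W) : ∃ p ∈ P F z g, μ p = iW w ∧ K.wc p = w := by
  obtain ⟨p, hp, e⟩ := K.P_surj (iW w) rfl
  exact ⟨p, hp, e, by rw [wc, e]; rfl⟩

omit [Finite G] in
theorem wc_mul {p q : G} (hp : p ∈ F) (hq : q ∈ F) : K.wc (p * q) = K.wc p + K.wc q := by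
  rw [wc, K.S.μ_mul p hp q hq]; rfl

omit [Finite G] in
theorem qV_P {p : G} (hp : p ∈ P F z g) : qV (μ p) = qW (K.wc p) := by
  simp [qV, (K.mem_P_iff.mp hp).2]

omit [Finite G] in
theorem bV_P {p q : G} (hp : p ∈ P F z g) (hq : q ∈ P F z g) :
    bV (μ p) (μ q) = bW (K.wc p) (K.wc q) := by
  simp [bV, (K.mem_P_iff.mp hp).2, (K.mem_P_iff.mp hq).2]

theorem wc_eq_zero {p : G} (hp : p ∈ P F z g) (e : K.wc p = 0) : p ∈ four z g := by
  have h1 : μ p = μ (fr z g 0 (μ p).1) := by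
    rw [K.μ_fr]
    refine Prod.ext ?_ (Prod.ext ?_ ?_)
    · simp [e₁]
    · simpa [e₁] using e
    · simpa [e₁] using (K.mem_P_iff.mp hp).2
  have hf := K.fr_mem 0 (μ p).1
  have h2 : p⁻¹ * fr z g 0 (μ p).1 ∈ Subgroup.zpowers z := by
    rw [← K.S.μ_zero _ (mul_mem (inv_mem hp.1) (K.four_le_F hf)),
      K.S.μ_mul _ (inv_mem hp.1) _ (K.four_le_F hf), K.S.μ_inv hp.1, ← h1, add_selfV]
  have h3 : p = fr z g 0 (μ p).1 * (p⁻¹ * fr z g 0 (μ p).1)⁻¹ := by group
  rw [h3]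
  exact mul_mem hf (inv_mem (Subgroup.mem_sup_left h2))

/-- Elements centralizing the four-group fix `e₁`. -/
theorem ρ_e {c : G} (hc : c ∈ Subgroup.centralizer (four z g : Set G)) : K.S.ρ c e₁ = e₁ := by
  obtain ⟨h1, h2⟩ := K.o.mem_CV_iff.mp hc
  rw [← K.μb, ← K.S.ρ_eq h1 K.o.hgF, h2, mul_inv_cancel_right]

/-- An element of `C(z)` fixing `e₁` agrees in action with one centralizing the four-group. -/
theorem exists_CV {c : G} (hc : c * z = z * c) (he : K.S.ρ c e₁ = e₁) :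
    ∃ c' ∈ Subgroup.centralizer (four z g : Set G), ∀ v, K.S.ρ c' v = K.S.ρ c v := by
  have hcb : c * bb z g * c⁻¹ ∈ F := K.S.conj_F hc K.o.hgF
  have h1 : (c * bb z g * c⁻¹)⁻¹ * bb z g ∈ Subgroup.zpowers z := by
    rw [← K.S.μ_zero _ (mul_mem (inv_mem hcb) K.o.hgF), K.S.μ_mul _ (inv_mem hcb) _ K.o.hgF,
      K.S.μ_inv hcb, K.S.ρ_eq hc K.o.hgF, K.μb, he, add_selfV]
  rcases K.S.h.pair h1 with e | e
  · exact ⟨c, K.o.mem_CV_iff.mpr ⟨hc, mul_inv_eq_iff_eq_mul.mp (inv_mul_eq_one.mp e)⟩, fun _ => rfl⟩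
  · obtain ⟨u, hu, huz, hub⟩ := K.o.exists_u
    have huc : u * c * z = z * (u * c) := by
      rw [mul_assoc, hc, ← mul_assoc, K.S.h.comm_x u hu, mul_assoc]
    refine ⟨u * c, K.o.mem_CV_iff.mpr ⟨huc, ?_⟩, fun v => ?_⟩
    · have hcb' : c * bb z g * c⁻¹ = bb z g * z := by
        rw [inv_mul_eq_iff_eq_mul] at e
        rw [show c * bb z g * c⁻¹ = c * bb z g * c⁻¹ * z * z by
          rw [mul_assoc _ z z, K.S.h.xx, mul_one], ← e]
      refine mul_inv_eq_iff_eq_mul.mp ?_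
      calc u * c * bb z g * (u * c)⁻¹ = u * (c * bb z g * c⁻¹) * u⁻¹ := by group
        _ = (u * bb z g * u⁻¹) * (u * z * u⁻¹) := by rw [hcb']; group
        _ = bb z g := by rw [hub, huz, K.o.zb, mul_assoc, K.S.h.xx, mul_one]
    · rw [K.S.ρ_mul (K.S.h.comm_x u hu) hc, K.S.ρ_of_mem hu]

/-- `c` acts as `h` on the four-dimensional part and fixes the hyperbolic line. -/
def IsLev (c : G) (h : W → W) : Prop :=
  c ∈ Subgroup.centralizer (four z g : Set G) ∧ ∀ v, K.S.ρ c v = (v.1, h v.2.1, v.2.2)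

theorem exists_lev {a b : W} (ha : qW a = 1) (hb : qW b = 1) :
    ∃ c, K.IsLev c fun w => rW a (rW b w) := by
  obtain ⟨c, hc, h⟩ := K.S.exists_refl2 (a := iW a) (b := iW b) (by rw [qV_iW, ha]) (by rw [qV_iW, hb])
  have h' : ∀ v, K.S.ρ c v = (v.1, rW a (rW b v.2.1), v.2.2) := fun v => by rw [h, rV_iW, rV_iW]
  obtain ⟨c', hc', e⟩ := K.exists_CV hc (by rw [h']; simp [e₁, rW, bW])
  exact ⟨c', hc', fun v => by rw [e, h']⟩

/-- The singular groups meet in the four-group. -/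
theorem inter_eq : F ⊓ F' F g = four z g := by
  refine le_antisymm (fun x hx => ?_) (le_inf K.four_le_F K.four_le_F')
  have hcomm : ∀ a ∈ F ⊓ F' F g, ∀ b ∈ F ⊓ F' F g, a * b = b * a := fun a ha b hb => by
    haveI := K.o.inter_elementary.1
    exact congrArg Subtype.val (IsMulCommutative.is_comm.comm (⟨a, ha⟩ : ↥(F ⊓ F' F g)) ⟨b, hb⟩)
  have hxP : x ∈ P F z g :=
    ⟨hx.1, Subgroup.mem_centralizer_singleton_iff.mpr (K.o.h'.comm_x x hx.2)⟩
  refine K.wc_eq_zero hxP ?_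
  by_contra hne
  have hq : qW (K.wc x) = 0 := by
    rw [← K.qV_P hxP]
    apply tw_inj K.S.h.xne
    rw [← K.S.μ_sq x hx.1, tw_zero, ← pow_two]
    exact K.o.inter_elementary.2 x hx
  obtain ⟨a, ha, b, hb, e⟩ := line_move _ hq hne
  obtain ⟨c, hc, hρ⟩ := K.exists_lev ha hb
  have hcz := (K.o.mem_CV_iff.mp hc).1
  have hx' : c * x * c⁻¹ ∈ F ⊓ F' F g := ⟨K.o.CV_norm_F hc hx.1, K.o.CV_norm_F' hc hx.2⟩
  have h1 := (K.S.commute_iff hx.1 hx'.1).mp (hcomm x hx _ hx')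
  rw [K.S.ρ_eq hcz hx.1, hρ] at h1
  simp [bV, (K.mem_P_iff.mp hxP).2, e] at h1

theorem eq_siegel {c : G} (hc : c * z = z * c) (he : K.S.ρ c e₁ = e₁)
    (hw : ∀ w, (K.S.ρ c (iW w)).2.1 = w) (v : V) : K.S.ρ c v = siegel (K.φc c) v := by
  have hf3 : (K.S.ρ c f₁).2.2 = 1 := by
    have h1 := K.S.ρ_bV hc f₁ e₁
    rw [he, bV_e, bV_e] at h1
    exact h1
  have hf1 : (K.S.ρ c f₁).1 = qW (K.φc c) := by
    have h1 := K.S.ρ_qV hc f₁
    have h2 : qV f₁ = 0 := by decide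
    rw [h2, qV, hf3, mul_one] at h1
    have h3 : ∀ a b : ZMod 2, a + b = 0 → a = b := by decide
    exact h3 _ _ h1
  have hw3 : ∀ w, (K.S.ρ c (iW w)).2.2 = 0 := by
    intro w
    have h1 := K.S.ρ_bV hc (iW w) e₁
    rw [he, bV_e, bV_e] at h1
    exact h1
  have hw1 : ∀ w, (K.S.ρ c (iW w)).1 = bW w (K.φc c) := by
    intro w
    have h1 := K.S.ρ_bV hc (iW w) f₁
    rw [bV, hw3, hw, hf3, bV_f] at h1
    have h2 : ∀ a b d : ZMod 2, a * 1 + 0 * d + b = 0 → a = b := by decide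
    exact h2 _ _ _ h1
  conv_lhs => rw [decomp v]
  rw [K.S.ρ_add hc, K.S.ρ_add hc, K.S.ρ_smul hc, K.S.ρ_smul hc, he]
  refine Prod.ext ?_ (Prod.ext ?_ ?_)
  · simp [e₁, siegel, hw1, hf1]
    ring
  · simp [e₁, siegel, hw]
  · simp [e₁, siegel, hw3, hf3]

theorem ρ_P' {r : G} (hr : r ∈ P' F z g) (v : V) : K.S.ρ r v = siegel (K.φc r) v := by
  have hrC := K.o.P'_le hr
  have hrz := (K.o.mem_CV_iff.mp hrC).1
  refine K.eq_siegel hrz (K.ρ_e hrC) (fun w => ?_) v
  obtain ⟨p, hp, e, -⟩ := K.wc_surj w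
  have h1 := (K.o.comm_mem_inter (x := r) (y := p) (Subgroup.mem_sup_left hr)
    (Subgroup.mem_sup_right hp)).1
  rw [K.inter_eq] at h1
  have h2 : r * p * r⁻¹ = r * p * r⁻¹ * p⁻¹ * p := by group
  have h3 : μ (r * p * r⁻¹) = μ (r * p * r⁻¹ * p⁻¹) + μ p := by
    conv_lhs => rw [h2]
    exact K.S.μ_mul _ (K.four_le_F h1) _ hp.1
  rw [← e, ← K.S.ρ_eq hrz hp.1, h3]
  simp [(K.μ_four h1).1, e, iW]

theorem φc_mul {r s : G} (hr : r ∈ P' F z g) (hs : s ∈ P' F z g) :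
    K.φc (r * s) = K.φc r + K.φc s := by
  conv_lhs => rw [φc, K.S.ρ_mul (K.o.mem_CV_iff.mp (K.o.P'_le hr)).1
    (K.o.mem_CV_iff.mp (K.o.P'_le hs)).1, K.ρ_P' hr, K.ρ_P' hs, siegel_siegel, siegel_f]

theorem φc_eq_zero {r : G} (hr : r ∈ P' F z g) (e : K.φc r = 0) : r ∈ four z g := by
  rw [← K.inter_eq]
  refine ⟨K.S.mem_F_of_ρ (Subgroup.mem_centralizer_singleton_iff.mp hr.2) fun v => ?_, hr.1⟩
  rw [K.ρ_P' hr, e, siegel_zero]

theorem φc_four {r : G} (hr : r ∈ four z g) : K.φc r = 0 := by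
  rw [φc, K.S.ρ_of_mem (K.four_le_F hr)]; rfl

theorem φc_inv {r : G} (hr : r ∈ P' F z g) : K.φc r⁻¹ = K.φc r := by
  have h1 := K.φc_mul hr (inv_mem hr)
  rw [mul_inv_cancel, K.φc_four (one_mem _)] at h1
  calc K.φc r⁻¹ = (K.φc r + K.φc r) + K.φc r⁻¹ := by rw [add_self, zero_add]
    _ = K.φc r := by rw [add_assoc, ← h1, add_zero]

theorem card_four : Nat.card (four z g) = 4 := by
  have e : (fun p : ZMod 2 × ZMod 2 => (⟨fr z g p.1 p.2, K.fr_mem _ _⟩ : four z g)).Bijective := by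
    constructor
    · intro p q h
      obtain ⟨h1, h2⟩ := K.fr_inj (congrArg Subtype.val h)
      exact Prod.ext h1 h2
    · rintro ⟨x, hx⟩
      obtain ⟨a, c, rfl⟩ := K.exists_fr hx
      exact ⟨(a, c), rfl⟩
  rw [← Nat.card_congr (Equiv.ofBijective _ e)]
  simp

theorem card_P : Nat.card (P F z g) = 64 := by
  have h1 := K.S.h.card_mul (four z g) K.four_le_F K.o.z_mem_four
  have e : F ⊓ Subgroup.centralizer (four z g : Set G) = P F z g :=
    le_antisymm (fun x hx => ⟨hx.1, Subgroup.mem_centralizer_singleton_iff.mpr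
      (hx.2 _ K.o.b_mem_four).symm⟩) (fun x hx => ⟨hx.1, K.o.P_le hx⟩)
  rw [e, K.card_four, K.S.card_F] at h1
  omega

theorem card_P' : Nat.card (P' F z g) = 64 := by
  have h1 := K.o.h'.card_mul (four z g) K.four_le_F' K.o.b_mem_four
  have e : F' F g ⊓ Subgroup.centralizer (four z g : Set G) = P' F z g :=
    le_antisymm (fun x hx => ⟨hx.1, Subgroup.mem_centralizer_singleton_iff.mpr
      (hx.2 _ K.o.z_mem_four).symm⟩) (fun x hx => ⟨hx.1, K.o.P'_le hx⟩)
  rw [e, K.card_four, Subgroup.card_map_of_injective (MulAut.conj g).injective, K.S.card_F] at h1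
  omega

theorem φc_surj (w : W) : ∃ r ∈ P' F z g, K.φc r = w := by
  let f : P' F z g →* Multiplicative W :=
    MonoidHom.mk' (fun r => Multiplicative.ofAdd (K.φc r)) fun r s => by
      rw [← ofAdd_add, ← K.φc_mul r.2 s.2]; rfl
  have hk : f.ker = (four z g).subgroupOf (P' F z g) := by
    ext r
    rw [MonoidHom.mem_ker, Subgroup.mem_subgroupOf]
    exact ⟨fun e => K.φc_eq_zero r.2 (congrArg Multiplicative.toAdd e),
      fun h => congrArg Multiplicative.ofAdd (K.φc_four h)⟩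
  have h1 := f.ker.card_mul_index
  rw [Subgroup.index_ker, hk, K.card_P',
    Nat.card_congr (Subgroup.subgroupOfEquivOfLe K.four_le_P').toEquiv, K.card_four] at h1
  have h2 : f.range = ⊤ := by
    refine Subgroup.eq_top_of_card_eq _ ?_
    rw [Nat.card_congr Multiplicative.toAdd]
    simp only [W, Nat.card_prod, Nat.card_zmod]
    show Nat.card f.range = _
    omega
  have h3 : Multiplicative.ofAdd w ∈ f.range := h2 ▸ Subgroup.mem_top _
  obtain ⟨r, hr⟩ := h3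
  exact ⟨r, r.2, congrArg Multiplicative.toAdd hr⟩

end Frame

end Cfsg.Agent.H53.Suz
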