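import Cfsg.Agent.H53.Suz.Coords

/-!
The standard involution of the radical is not conjugate to `z`.
-/

set_option autoImplicit false
set_option synthInstance.maxSize 20000
set_option synthInstance.maxHeartbeats 400000

namespace Cfsg.Agent.H53.Suz

open H18 H18.OrthPair
open scoped commutatorElement

variable {G : Type*} [Group G] [Finite G]

namespace Frame

variable {F : Subgroup G} {z g : G} {μ : G → V} (K : Frame F z μ g)
include K

/-- `C(t) ∩ C(z)`. -/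
abbrev T (_K : Frame F z μ g) (t : G) : Subgroup G :=
  Subgroup.centralizer ({t} : Set G) ⊓ Subgroup.centralizer ({z} : Set G)

omit [Finite G] in
theorem mem_T {t c : G} : c ∈ K.T t ↔ c * t = t * c ∧ c * z = z * c := by
  rw [T, Subgroup.mem_inf, Subgroup.mem_centralizer_singleton_iff,
    Subgroup.mem_centralizer_singleton_iff]

theorem T_e {t c : G} (ht : K.Co t φ₀ w₀) (hc : c ∈ K.T t) : K.S.ρ c e₁ = e₁ := by
  obtain ⟨hct, hcz⟩ := K.mem_T.mp hc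
  have htz := (K.co_cen ht).1
  set v₀ : V := iW w₀ with hv₀
  have h0 : siegel φ₀ v₀ + v₀ = e₁ := by decide
  have h1 : K.S.ρ c e₁ = siegel φ₀ (K.S.ρ c v₀) + K.S.ρ c v₀ := by
    rw [← h0, K.S.ρ_add hcz, ← K.co_ρ ht, ← K.co_ρ ht, ← K.S.ρ_mul hcz htz, hct,
      K.S.ρ_mul htz hcz]
  rcases image_siegel (K.S.ρ c v₀) with h | h | h
  · rw [h] at h1
    exact absurd (K.S.ρ_inj hcz (h1.trans (K.S.ρ_zero hcz).symm)) (by decide)
  · rw [h1, h]
  · rw [← h1, K.S.ρ_qV hcz] at h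
    exact absurd h (by decide)

theorem T_b {t c : G} (ht : K.Co t φ₀ w₀) (hc : c ∈ K.T t) :
    c * bb z g * c⁻¹ = bb z g ∨ c * bb z g * c⁻¹ = z * bb z g := by
  obtain ⟨-, hcz⟩ := K.mem_T.mp hc
  have hcb := K.S.conj_F hcz K.o.hgF
  have h1 : c * bb z g * c⁻¹ * (bb z g)⁻¹ ∈ Subgroup.zpowers z := by
    rw [← K.S.μ_zero _ (mul_mem hcb (inv_mem K.o.hgF)), K.S.μ_mul _ hcb _ (inv_mem K.o.hgF),
      K.S.μ_inv K.o.hgF, K.S.ρ_eq hcz K.o.hgF, K.μb, K.T_e ht hc, add_selfV]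
  rcases K.S.h.pair h1 with e | e
  · exact Or.inl (mul_inv_eq_one.mp e)
  · exact Or.inr (mul_inv_eq_iff_eq_mul.mp e)

/-- An element of `T` fixing `b` lies in the radical. -/
theorem T_R {t c : G} (ht : K.Co t φ₀ w₀) (hc : c ∈ K.T t)
    (hcb : c * bb z g = bb z g * c) : c ∈ R F z g := by
  obtain ⟨hct, hcz⟩ := K.mem_T.mp hc
  have hcC := K.o.mem_CV_iff.mpr ⟨hcz, hcb⟩
  obtain ⟨r, hr, hrφ⟩ := K.φc_surj (K.φc c)
  have hrC := K.o.P'_le hr
  have hc'C : r * c ∈ Subgroup.centralizer (four z g : Set G) := mul_mem hrC hcC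
  have hc'z := (K.o.mem_CV_iff.mp hc'C).1
  have he := K.ρ_e hcC
  have he' := K.ρ_e hc'C
  have hA : K.S.ρ c f₁ = siegel (K.φc c) f₁ := by
    have h3 := K.S.ρ_bV hcz f₁ e₁
    rw [he, bV_e, bV_e] at h3
    have h3' : (K.S.ρ c f₁).2.2 = 1 := h3
    have h1 := K.S.ρ_qV hcz f₁
    have h2 : qV f₁ = 0 := by decide
    rw [h2, qV, h3', mul_one] at h1
    have key : ∀ a b : ZMod 2, a + b = 0 → a = b := by decide
    rw [siegel_f]
    exact Prod.ext (key _ _ h1) (Prod.ext rfl h3')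
  have hf : K.S.ρ (r * c) f₁ = f₁ := by
    rw [K.S.ρ_mul (K.o.mem_CV_iff.mp hrC).1 hcz, hA, K.ρ_P' hr, hrφ, siegel_siegel, add_self,
      siegel_zero]
  obtain ⟨h, hh⟩ : ∃ h : W → W, ∀ w, h w = (K.S.ρ (r * c) (iW w)).2.1 := ⟨_, fun _ => rfl⟩
  have h1 : ∀ w, (K.S.ρ (r * c) (iW w)).1 = 0 := fun w => by
    rw [← bV_f (K.S.ρ (r * c) (iW w))]
    conv_lhs => rw [← hf]
    rw [K.S.ρ_bV hc'z, bV_f]
    rfl
  have h3 : ∀ w, (K.S.ρ (r * c) (iW w)).2.2 = 0 := fun w => by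
    rw [← bV_e (K.S.ρ (r * c) (iW w))]
    conv_lhs => rw [← he']
    rw [K.S.ρ_bV hc'z, bV_e]
    rfl
  have hmid : ∀ w, K.S.ρ (r * c) (iW w) = iW (h w) := fun w =>
    Prod.ext (h1 w) (Prod.ext (hh w).symm (h3 w))
  have hlev : K.IsLev (r * c) h := ⟨hc'C, fun v => by
    conv_lhs => rw [decomp v]
    rw [K.S.ρ_add hc'z, K.S.ρ_add hc'z, K.S.ρ_smul hc'z, K.S.ρ_smul hc'z, he', hf, hmid]
    refine Prod.ext ?_ (Prod.ext ?_ ?_) <;> simp [iW, e₁, f₁]⟩
  have hadd : ∀ x y, h (x + y) = h x + h y := fun x y => by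
    rw [hh, hh, hh, show iW (x + y) = iW x + iW y by simp [iW], K.S.ρ_add hc'z]; rfl
  have hzero : h 0 = 0 := by
    have h0 := hadd 0 0
    rw [add_zero] at h0
    exact left_eq_add.mp h0
  have hq : ∀ x, qW (h x) = qW x := fun x => by
    rw [← qV_iW, ← hmid, K.S.ρ_qV hc'z, qV_iW]
  have hb : ∀ x y, bW (h x) (h y) = bW x y := fun x y => by
    have e := hq (x + y)
    rw [hadd, qW_add, qW_add, hq, hq] at e
    exact add_left_cancel e
  -- `h` fixes the standard pair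
  have hco1 := K.co_lev hlev hzero ht
  have hco2 : K.Co (r * c * t * (r * c)⁻¹) φ₀ w₀ := by
    have e : r * c * t * (r * c)⁻¹ = r * t * r⁻¹ * t⁻¹ * t := by
      rw [show r * c * t * (r * c)⁻¹ = r * (c * t * c⁻¹) * r⁻¹ by group, hct, mul_inv_cancel_right]
      group
    have h' := K.co_mul (K.co_four (K.co_comm_mem (Subgroup.mem_sup_left hr) (K.co_mem ht))) ht
    rwa [← e, zero_add, zero_add] at h'
  obtain ⟨hφ, hw⟩ := K.co_uniq hco1 hco2
  obtain ⟨a₁, ha₁⟩ : ∃ a : W, a = (1, 0, 0, 0) := ⟨_, rfl⟩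
  obtain ⟨a₂, ha₂⟩ : ∃ a : W, a = (0, 1, 0, 0) := ⟨_, rfl⟩
  have hperp : ∀ a : W, qW a = 0 → bW a φ₀ = 0 → bW a w₀ = 0 →
      qW (h a) = 0 ∧ bW (h a) φ₀ = 0 ∧ bW (h a) w₀ = 0 := fun a e1 e2 e3 =>
    ⟨by rw [hq, e1], by rw [← hφ, hb, e2], by rw [← hw, hb, e3]⟩
  obtain ⟨p1, p2, p3⟩ := hperp a₁ (by subst ha₁; decide) (by subst ha₁; decide) (by subst ha₁; decide)
  obtain ⟨q1, q2, q3⟩ := hperp a₂ (by subst ha₂; decide) (by subst ha₂; decide) (by subst ha₂; decide)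
  have h12 : bW (h a₂) (h a₁) = 1 := by rw [hb]; subst ha₁ ha₂; decide
  have hsmul : ∀ (a : ZMod 2) x, h (a • x) = a • h x := fun a x => by
    rcases two_cases a with rfl | rfl
    · rw [zero_smul, zero_smul, hzero]
    · rw [one_smul, one_smul]
  have hdec : ∀ x : W, h x = x.1 • h a₁ + x.2.1 • h a₂ + x.2.2.1 • φ₀ + x.2.2.2 • w₀ := fun x => by
    conv_lhs => rw [W_basis x]
    rw [hadd, hadd, hadd, hsmul, hsmul, hsmul, hsmul, hφ, hw, ← ha₁, ← ha₂]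
  rcases plane_perp _ p1 p2 p3 with e | e | e
  · rw [e] at h12
    exact absurd h12 (by simp [bW])
  · -- the action of `r * c` is trivial
    rw [e] at h12
    have e' := partner _ q1 q2 q3 h12
    have hid : ∀ x, h x = x := fun x => by
      rw [hdec, e, e']
      exact (W_basis x).symm
    have hF : r * c ∈ F := K.S.mem_F_of_ρ hc'z fun v => by rw [hlev.2, hid]
    have hP : r * c ∈ P F z g :=
      ⟨hF, Subgroup.mem_centralizer_singleton_iff.mpr (K.o.mem_CV_iff.mp hc'C).2⟩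
    have h' := mul_mem (inv_mem (show r ∈ R F z g from Subgroup.mem_sup_left hr))
      (show r * c ∈ R F z g from Subgroup.mem_sup_right hP)
    rwa [inv_mul_cancel_left] at h'
  · -- the action of `r * c` would be a reflection
    exfalso
    rw [e] at h12
    have e' := partner' _ q1 q2 q3 h12
    have hswap : ∀ x, h x = rW (1, 1, 0, 0) x := fun x => by
      rw [hdec, e, e']
      revert x
      decide +kernel
    have hρ : ∀ v, K.S.ρ (r * c) v = rV (iW (1, 1, 0, 0)) v := fun v => by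
      rw [hlev.2, hswap, rV_iW]
    have hinv : ∀ v, K.S.ρ (r * c) (K.S.ρ (r * c) v) = v := fun v => by
      rw [hρ, hρ]
      revert v
      decide +kernel
    have hr2 : (Set.range fun v => K.S.ρ (r * c) v + v) = {0, iW (1, 1, 0, 0)} := by
      ext i
      simp only [Set.mem_range, hρ, Set.mem_insert_iff, Set.mem_singleton_iff]
      revert i
      decide +kernel
    have hc2 := K.S.resid_card hc'z hinv
    rw [hr2, Set.ncard_pair (by decide)] at hc2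
    omega

/-- `C_R(t)`. -/
abbrev M (_K : Frame F z μ g) (t : G) : Subgroup G :=
  R F z g ⊓ Subgroup.centralizer ({t} : Set G)

theorem M_le_T {t : G} : K.M t ≤ K.T t := fun x hx =>
  ⟨hx.2, Subgroup.mem_centralizer_singleton_iff.mpr (K.o.mem_CV_iff.mp (K.o.R_le_CV hx.1)).1⟩

theorem T_diff {t a b : G} (ht : K.Co t φ₀ w₀) (ha : a ∈ K.T t) (hb : b ∈ K.T t)
    (haM : a ∉ K.M t) (hbM : b ∉ K.M t) : a⁻¹ * b ∈ K.M t := by
  have key : ∀ c ∈ K.T t, c ∉ K.M t → c * bb z g * c⁻¹ = z * bb z g := fun c hc hcM =>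
    (K.T_b ht hc).resolve_left fun e => hcM ⟨K.T_R ht hc (mul_inv_eq_iff_eq_mul.mp e), hc.1⟩
  refine ⟨K.T_R ht (mul_mem (inv_mem ha) hb) ?_, (mul_mem (inv_mem ha) hb).1⟩
  calc a⁻¹ * b * bb z g = a⁻¹ * (b * bb z g * b⁻¹) * b := by group
    _ = a⁻¹ * (a * bb z g * a⁻¹) * b := by rw [key a ha haM, key b hb hbM]
    _ = bb z g * (a⁻¹ * b) := by simp only [bb]; group

theorem M_sq {t c : G} (ht : K.Co t φ₀ w₀) (hc : c ∈ K.T t) : c * c ∈ K.M t := by
  refine ⟨K.T_R ht (mul_mem hc hc) ?_, (mul_mem hc hc).1⟩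
  obtain ⟨-, hcz⟩ := K.mem_T.mp hc
  refine mul_inv_eq_iff_eq_mul.mp ?_
  rw [show c * c * bb z g * (c * c)⁻¹ = c * (c * bb z g * c⁻¹) * c⁻¹ by group]
  rcases K.T_b ht hc with e | e
  · rw [e, e]
  · rw [e, show c * (z * bb z g) * c⁻¹ = c * z * c⁻¹ * (c * bb z g * c⁻¹) by group, e, hcz,
      mul_inv_cancel_right, ← mul_assoc, K.S.h.xx, one_mul]

theorem T_isPGroup {t : G} (ht : K.Co t φ₀ w₀) : IsPGroup 2 (K.T t) := by
  intro ⟨c, hc⟩
  obtain ⟨k, hk⟩ := K.o.R_isPGroup ⟨c * c, (K.M_sq ht hc).1⟩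
  refine ⟨k + 1, Subtype.ext ?_⟩
  have hk' : (c * c) ^ 2 ^ k = 1 := congrArg Subtype.val hk
  show c ^ 2 ^ (k + 1) = 1
  rw [pow_succ', pow_mul, pow_two, hk']

theorem card_M_le {t : G} (ht : K.Co t φ₀ w₀) : Nat.card (K.M t) ≤ 256 := by
  have h4 : 4 ≤ (conjOrb (R F z g) t).ncard := by
    have hsub : Set.range (fun q : ZMod 2 × ZMod 2 => fr z g q.1 q.2 * t) ⊆
        conjOrb (R F z g) t := by
      rintro _ ⟨⟨α, β⟩, rfl⟩
      obtain ⟨v, h1, h2⟩ := solve_pair φ₀ w₀ (by decide) (by decide) (by decide) α β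
      obtain ⟨p, hp, -, rfl⟩ := K.wc_surj v
      refine ⟨p, Subgroup.mem_sup_right hp, ?_⟩
      have h3 := K.co_comm (K.co_p hp) ht
      rw [show bW 0 w₀ + bW φ₀ (K.wc p) + bW (K.wc p) w₀ = α by
          rw [bW_comm (K.wc p) w₀, ← h1]; simp [bW],
        show bW 0 w₀ + bW φ₀ (K.wc p) + bW 0 φ₀ = β by rw [← h2]; simp [bW]] at h3
      show p * t * p⁻¹ = fr z g α β * t
      rw [← h3]; group
    refine le_trans (le_of_eq ?_) (Set.ncard_le_ncard hsub)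
    rw [Set.ncard_range_of_injective]
    · simp
    · intro p q e
      obtain ⟨e1, e2⟩ := K.fr_inj (mul_right_cancel e)
      exact Prod.ext e1 e2
  have h1 := ncard_conjOrb_mul (R F z g) t
  have h2 := K.card_R_le
  have h3 := Nat.mul_le_mul_right (Nat.card (K.M t)) h4
  change (conjOrb (R F z g) t).ncard * Nat.card (K.M t) = _ at h1
  omega

theorem card_T_le {t : G} (ht : K.Co t φ₀ w₀) : Nat.card (K.T t) ≤ 512 := by
  have h1 := H18.card_le_two_mul (H := K.M t) (K := K.T t)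
    (fun a ha b hb haM hbM => K.T_diff ht ha hb haM hbM)
  have h2 := K.card_M_le ht
  omega

/-- Some element of `T` moves `b`. -/
theorem exists_swap {t : G} (ht : K.Co t φ₀ w₀) :
    ∃ c ∈ K.T t, c * bb z g * c⁻¹ = z * bb z g := by
  obtain ⟨u, hu, hμ⟩ := K.S.μ_surj f₁
  have h1 := K.co_u hu hμ ht
  obtain ⟨a, ha, b, hb, e1, e2⟩ := pair_transitive (φ₀ + w₀) (by decide) (by decide)
  obtain ⟨d, hd⟩ := K.exists_lev ha hb
  have h2 := K.co_lev hd (by simp [rW, bW]) h1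
  rw [e1, e2] at h2
  obtain ⟨p, hp, e⟩ := K.std_conj h2 ht
  have hdz := K.o.mem_CV_iff.mp hd.1
  have hub : u * bb z g * u⁻¹ = z * bb z g := by
    have h3 := K.S.μ_comm hu K.o.hgF
    rw [hμ, K.μb, bV_e, show f₁.2.2 = (1 : ZMod 2) from rfl, tw_one] at h3
    exact mul_inv_eq_iff_eq_mul.mp h3
  refine ⟨p * d * u, K.mem_T.mpr ⟨?_, ?_⟩, ?_⟩
  · exact mul_inv_eq_iff_eq_mul.mp (by rw [show p * d * u * t * (p * d * u)⁻¹ =
      p * (d * (u * t * u⁻¹) * d⁻¹) * p⁻¹ by group, e])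
  · rw [mul_assoc, K.S.h.comm_x u hu, ← mul_assoc, mul_assoc p, hdz.1, ← mul_assoc,
      K.S.h.comm_x p hp.1, mul_assoc, mul_assoc, mul_assoc]
  · have hzbC : z * bb z g ∈ four z g := mul_mem K.o.z_mem_four K.o.b_mem_four
    rw [show p * d * u * bb z g * (p * d * u)⁻¹ = p * (d * (u * bb z g * u⁻¹) * d⁻¹) * p⁻¹ by group,
      hub, K.central hd.1 hzbC, mul_inv_cancel_right, K.central (K.o.P_le hp) hzbC,
      mul_inv_cancel_right]

/-- The elements of `T` that commute with `T` modulo the four-group. -/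
theorem commutator_T_comm {t n x : G} (ht : K.Co t φ₀ w₀) (hn : n ∈ ⁅K.T t, K.T t⁆)
    (hx : x ∈ K.T t) : n * x * n⁻¹ * x⁻¹ ∈ four z g := by
  have hfour : ∀ c ∈ K.T t, ∀ f ∈ four z g, c * f * c⁻¹ ∈ four z g := by
    intro c hc f hf
    have hcz := (K.mem_T.mp hc).2
    have hz' : c * z * c⁻¹ = z := by rw [hcz, mul_inv_cancel_right]
    have hb' : c * bb z g * c⁻¹ ∈ four z g := by
      rcases K.T_b ht hc with e | e <;> rw [e]
      · exact K.o.b_mem_four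
      · exact mul_mem K.o.z_mem_four K.o.b_mem_four
    have hle : four z g ≤ (four z g).comap (MulAut.conj c).toMonoidHom :=
      sup_le (Subgroup.zpowers_le.mpr (show c * z * c⁻¹ ∈ four z g by rw [hz']; exact K.o.z_mem_four))
        (Subgroup.zpowers_le.mpr hb')
    exact hle hf
  have hfM : ∀ f ∈ four z g, f ∈ K.M t := fun f hf =>
    ⟨Subgroup.mem_sup_right (K.four_le_P hf), Subgroup.mem_centralizer_singleton_iff.mpr
      (K.central (K.o.R_le_CV (K.co_mem ht)) hf).symm⟩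
  set S : Set G := {m | m ∈ K.M t ∧ ∀ x ∈ K.T t, m * x * m⁻¹ * x⁻¹ ∈ four z g} with hS
  have hfS : ∀ f ∈ four z g, f ∈ S := fun f hf => ⟨hfM f hf, fun y hy => by
    rw [show f * y * f⁻¹ * y⁻¹ = f * (y * f⁻¹ * y⁻¹) by group]
    exact mul_mem hf (hfour y hy _ (inv_mem hf))⟩
  have hSmul : ∀ a ∈ S, ∀ a' ∈ S, a * a' ∈ S := fun a ha a' ha' =>
    ⟨mul_mem ha.1 ha'.1, fun y hy => by
      rw [show a * a' * y * (a * a')⁻¹ * y⁻¹ =
        a * (a' * y * a'⁻¹ * y⁻¹) * a⁻¹ * (a * y * a⁻¹ * y⁻¹) by group]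
      exact mul_mem (hfour a (K.M_le_T ha.1) _ (ha'.2 y hy)) (ha.2 y hy)⟩
  set D := subgroupOfMulClosed S (hfS 1 (one_mem _)) hSmul with hD
  have hmem : ∀ m, m ∈ D ↔ m ∈ S := fun m => Iff.rfl
  have hDinv : ∀ a ∈ K.T t, ∀ m ∈ D, a * m * a⁻¹ ∈ D := by
    intro a ha m hm
    rw [show a * m * a⁻¹ = (m * a * m⁻¹ * a⁻¹)⁻¹ * m by group]
    exact mul_mem ((hmem _).mpr (hfS _ (inv_mem (((hmem m).mp hm).2 a ha)))) hm
  -- a commutator of an element of `M` with one of `T`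
  have hMT : ∀ a ∈ K.M t, ∀ y ∈ K.T t, a * y * a⁻¹ * y⁻¹ ∈ D := by
    intro a ha y hy
    by_cases hyM : y ∈ K.M t
    · exact (hmem _).mpr (hfS _ (K.co_comm_mem ha.1 hyM.1))
    set m := a * y * a⁻¹ * y⁻¹ with hm
    have hmT : m ∈ K.T t :=
      mul_mem (mul_mem (mul_mem (K.M_le_T ha) hy) (inv_mem (K.M_le_T ha))) (inv_mem hy)
    have hmM : m ∈ K.M t := by
      refine ⟨K.T_R ht hmT ?_, hmT.1⟩
      have hab : a * bb z g = bb z g * a := (K.o.mem_CV_iff.mp (K.o.R_le_CV ha.1)).2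
      have e : y * a⁻¹ * y⁻¹ * bb z g * (y * a⁻¹ * y⁻¹)⁻¹ = bb z g := by
        obtain ⟨k, hk, e⟩ : ∃ k ∈ four z g, y⁻¹ * bb z g * y = k :=
          ⟨_, by simpa using hfour y⁻¹ (inv_mem hy) _ K.o.b_mem_four, rfl⟩
        rw [show y * a⁻¹ * y⁻¹ * bb z g * (y * a⁻¹ * y⁻¹)⁻¹ =
          y * (a⁻¹ * (y⁻¹ * bb z g * y) * a) * y⁻¹ by group, e, mul_assoc a⁻¹,
          ← K.central (K.o.R_le_CV ha.1) hk, inv_mul_cancel_left, ← e]
        simp only [bb]
        group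
      refine mul_inv_eq_iff_eq_mul.mp ?_
      rw [show m * bb z g * m⁻¹ = a * (y * a⁻¹ * y⁻¹ * bb z g * (y * a⁻¹ * y⁻¹)⁻¹) * a⁻¹ by
        rw [hm]; group, e, hab, mul_inv_cancel_right]
    refine (hmem _).mpr ⟨hmM, fun x hx => ?_⟩
    have hmy : m * y * m⁻¹ * y⁻¹ ∈ four z g := by
      set f := (y * y) * a * (y * y)⁻¹ * a⁻¹ with hf
      have hf4 : f ∈ four z g := K.co_comm_mem (K.M_sq ht hy).1 ha.1
      have e : y * m⁻¹ * y⁻¹ = f * m := by rw [hf, hm]; group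
      rw [show m * y * m⁻¹ * y⁻¹ = m * (y * m⁻¹ * y⁻¹) by group, e, ← mul_assoc,
        K.central (K.o.R_le_CV hmM.1) hf4, mul_assoc]
      exact mul_mem hf4 (K.co_sq_mem hmM.1)
    by_cases hxM : x ∈ K.M t
    · exact K.co_comm_mem hmM.1 hxM.1
    obtain ⟨k, hk, rfl⟩ : ∃ k ∈ K.M t, x = y * k :=
      ⟨y⁻¹ * x, K.T_diff ht hy hx hyM hxM, by group⟩
    rw [show m * (y * k) * m⁻¹ * (y * k)⁻¹ =
      m * y * m⁻¹ * y⁻¹ * (y * (m * k * m⁻¹ * k⁻¹) * y⁻¹) by group]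
    exact mul_mem hmy (hfour y hy _ (K.co_comm_mem hmM.1 hk.1))
  have hall : ⁅K.T t, K.T t⁆ ≤ D := by
    rw [Subgroup.commutator_le]
    intro a ha y hy
    rw [commutatorElement_def]
    by_cases haM : a ∈ K.M t
    · exact hMT a haM y hy
    by_cases hyM : y ∈ K.M t
    · rw [show a * y * a⁻¹ * y⁻¹ = (y * a * y⁻¹ * a⁻¹)⁻¹ by group]
      exact inv_mem (hMT y hyM a ha)
    obtain ⟨m, hm, rfl⟩ : ∃ m ∈ K.M t, y = a * m :=
      ⟨a⁻¹ * y, K.T_diff ht ha hy haM hyM, by group⟩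
    rw [show a * (a * m) * a⁻¹ * (a * m)⁻¹ = a * (m * a * m⁻¹ * a⁻¹)⁻¹ * a⁻¹ by group]
    exact hDinv a ha _ (inv_mem (hMT m hm a ha))
  exact ((hmem n).mp (hall hn)).2 x hx

/-- An element normalizing `T` fixes `z`. -/
theorem normalizer_fix {t n : G} (ht : K.Co t φ₀ w₀)
    (hn : n ∈ Subgroup.normalizer (K.T t : Set G)) : n * z * n⁻¹ = z := by
  obtain ⟨c, hc, hcb⟩ := K.exists_swap ht
  obtain ⟨D₃, hD₃⟩ : ∃ D, D = ⁅⁅K.T t, K.T t⁆, K.T t⁆ := ⟨_, rfl⟩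
  obtain ⟨D₄, hD₄⟩ : ∃ D, D = ⁅D₃, K.T t⁆ := ⟨_, rfl⟩
  have hT : (K.T t).map (MulAut.conj n).toMonoidHom = K.T t := by
    ext x
    constructor
    · rintro ⟨y, hy, rfl⟩
      exact (Subgroup.mem_normalizer_iff.mp hn y).mp hy
    · intro hx
      refine ⟨n⁻¹ * x * n, (Subgroup.mem_normalizer_iff''.mp hn x).mp hx, ?_⟩
      show n * (n⁻¹ * x * n) * n⁻¹ = x
      group
  have h3inv : ∀ x ∈ D₃, n * x * n⁻¹ ∈ D₃ := fun x hx => by
    have e : D₃.map (MulAut.conj n).toMonoidHom = D₃ := by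
      rw [hD₃, Subgroup.map_commutator, Subgroup.map_commutator, hT]
    exact e ▸ ⟨x, hx, rfl⟩
  have h4inv : ∀ x ∈ D₄, n * x * n⁻¹ ∈ D₄ := fun x hx => by
    have e : D₄.map (MulAut.conj n).toMonoidHom = D₄ := by
      rw [hD₄, hD₃, Subgroup.map_commutator, Subgroup.map_commutator, Subgroup.map_commutator, hT]
    exact e ▸ ⟨x, hx, rfl⟩
  have h3 : D₃ ≤ four z g := by
    rw [hD₃, Subgroup.commutator_le]
    intro a ha x hx
    rw [commutatorElement_def]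
    exact K.commutator_T_comm ht ha hx
  have h4 : D₄ ≤ Subgroup.zpowers z := by
    rw [hD₄, Subgroup.commutator_le]
    intro a ha x hx
    rw [commutatorElement_def]
    obtain ⟨α, β, rfl⟩ := K.exists_fr (h3 ha)
    have hxz := (K.mem_T.mp hx).2
    have hzz : x * z * x⁻¹ = z := by rw [hxz, mul_inv_cancel_right]
    have hz' : x * tw z α * x⁻¹ = tw z α := K.S.h.central_zp_mul' hxz (tw_mem z α)
    have hfi := K.fr_inv α β
    rw [show fr z g α β * x * (fr z g α β)⁻¹ * x⁻¹ =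
      fr z g α β * (x * (fr z g α β)⁻¹ * x⁻¹) by group, hfi]
    rcases two_cases β with rfl | rfl
    · rw [show fr z g α 0 = tw z α by rw [fr, tw_zero, mul_one], hz']
      exact mul_mem (tw_mem _ _) (tw_mem _ _)
    · rcases K.T_b ht hx with e | e
      · rw [show x * fr z g α 1 * x⁻¹ = fr z g α 1 by
          rw [fr, tw_one, ← conj_mul, hz', e], K.fr_mul]
        simp only [fr, show (1 : ZMod 2) + 1 = 0 by decide, tw_zero, mul_one]
        exact tw_mem _ _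
      · rw [show x * fr z g α 1 * x⁻¹ = fr z g (α + 1) 1 by
          rw [fr, tw_one, ← conj_mul, hz', e, fr, tw_one, tw_add K.S.h.xx, tw_one, mul_assoc],
          K.fr_mul]
        simp only [fr, show (1 : ZMod 2) + 1 = 0 by decide, tw_zero, mul_one]
        exact tw_mem _ _
  -- `b` lies in the derived group
  obtain ⟨p₁, hp₁, -, hw₁⟩ := K.wc_surj (1, 0, 0, 0)
  obtain ⟨p₂, hp₂, -, hw₂⟩ := K.wc_surj (0, 1, 0, 0)
  obtain ⟨r₂, hr₂, hφ₂⟩ := K.φc_surj (0, 1, 0, 0)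
  have hcen : ∀ x φ w, K.Co x φ w → bW φ w₀ + bW φ₀ w + bW w w₀ = 0 →
      bW φ w₀ + bW φ₀ w + bW φ φ₀ = 0 → x ∈ K.T t := by
    intro x φ w hx e1 e2
    have h := K.co_comm hx ht
    rw [e1, e2, K.fr_zero] at h
    refine K.M_le_T ⟨K.co_mem hx, Subgroup.mem_centralizer_singleton_iff.mpr ?_⟩
    exact mul_inv_eq_iff_eq_mul.mp (mul_inv_eq_one.mp h)
  have hp₁T : p₁ ∈ K.T t := hcen _ _ _ (K.co_p hp₁) (by rw [hw₁]; decide) (by rw [hw₁]; decide)
  have hp₂T : p₂ ∈ K.T t := hcen _ _ _ (K.co_p hp₂) (by rw [hw₂]; decide) (by rw [hw₂]; decide)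
  have hr₂T : r₂ ∈ K.T t := hcen _ _ _ (K.co_r hr₂) (by rw [hφ₂]; decide) (by rw [hφ₂]; decide)
  have hb' : bb z g ∈ ⁅K.T t, K.T t⁆ := by
    have e1 := Subgroup.commutator_mem_commutator hp₁T hp₂T
    have e2 := Subgroup.commutator_mem_commutator hr₂T hp₁T
    rw [commutatorElement_def, K.comm_pp hp₁ hp₂, hw₁, hw₂] at e1
    rw [commutatorElement_def, K.comm_rp hr₂ hp₁, hw₁, hφ₂] at e2
    have h := mul_mem e1 e2
    rw [K.fr_mul] at h
    have e : fr z g (bW ((1, 0, 0, 0) : W) (0, 1, 0, 0) + bW ((0, 1, 0, 0) : W) (1, 0, 0, 0))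
        (0 + bW ((0, 1, 0, 0) : W) (1, 0, 0, 0)) = bb z g := by
      rw [show bW ((1, 0, 0, 0) : W) (0, 1, 0, 0) + bW ((0, 1, 0, 0) : W) (1, 0, 0, 0) = 0 by decide,
        show 0 + bW ((0, 1, 0, 0) : W) (1, 0, 0, 0) = 1 by decide, fr, tw_zero, tw_one, one_mul]
    rwa [e] at h
  have hcbz : c * bb z g * c⁻¹ * (bb z g)⁻¹ = z := by rw [hcb, mul_inv_cancel_right]
  have hbcz : bb z g * c * (bb z g)⁻¹ * c⁻¹ = z := by
    rw [show bb z g * c * (bb z g)⁻¹ * c⁻¹ = (c * bb z g * c⁻¹ * (bb z g)⁻¹)⁻¹ by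
      simp only [bb]; group, hcbz,
      K.S.h.x_inv]
  have hzD : z ∈ D₃ := by
    have h := Subgroup.commutator_mem_commutator hb' hc
    rw [commutatorElement_def, hbcz, ← hD₃] at h
    exact h
  by_contra hne
  have hb3 : bb z g ∈ D₃ := by
    rcases K.o.mem_four_iff.mp (h3 (h3inv z hzD)) with e | e | e | e
    · exact absurd (conj_eq_one_iff.mp e) K.S.h.xne
    · exact absurd e hne
    · exact e ▸ h3inv z hzD
    · have h := mul_mem hzD (h3inv z hzD)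
      rwa [e, ← mul_assoc, K.S.h.xx, one_mul] at h
  have hz4 : z ∈ D₄ := by
    have h := Subgroup.commutator_mem_commutator hb3 hc
    rw [commutatorElement_def, hbcz, ← hD₄] at h
    exact h
  rcases K.S.h.pair (h4 (h4inv z hz4)) with e | e
  · exact K.S.h.xne (conj_eq_one_iff.mp e)
  · exact hne e

theorem not_conj {t : G} (ht : K.Co t φ₀ w₀) : ¬ IsConj z t := by
  haveI : Fact (Nat.Prime 2) := ⟨Nat.prime_two⟩
  intro h
  obtain ⟨a, ha⟩ := isConj_iff.mp h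
  obtain ⟨S, hS⟩ := (K.T_isPGroup ht).exists_le_sylow (G := G)
  set Ct := Subgroup.centralizer ({t} : Set G) with hCt
  have hmapC : (Subgroup.centralizer ({z} : Set G)).map (MulAut.conj a).toMonoidHom = Ct := by
    ext x
    rw [hCt, Subgroup.mem_centralizer_singleton_iff]
    constructor
    · rintro ⟨y, hy, rfl⟩
      show a * y * a⁻¹ * t = t * (a * y * a⁻¹)
      rw [← ha, conj_mul, conj_mul, Subgroup.mem_centralizer_singleton_iff.mp hy]
    · intro hx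
      refine ⟨a⁻¹ * x * a, Subgroup.mem_centralizer_singleton_iff.mpr ?_, ?_⟩
      · calc a⁻¹ * x * a * z = a⁻¹ * (x * (a * z * a⁻¹)) * a := by group
          _ = a⁻¹ * ((a * z * a⁻¹) * x) * a := by rw [ha, hx]
          _ = z * (a⁻¹ * x * a) := by group
      · show a * (a⁻¹ * x * a) * a⁻¹ = x
        group
  have hcard : Nat.card Ct = 2 ^ 13 * 405 := by
    rw [← hmapC, Subgroup.card_map_of_injective (MulAut.conj a).injective, K.S.card_C]
  obtain ⟨P₀, hP₀⟩ := (K.T_isPGroup ht).of_equiv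
    (Subgroup.subgroupOfEquivOfLe (inf_le_left : K.T t ≤ Ct)).symm |>.exists_le_sylow (G := Ct)
  have hP : 2 ^ 13 ≤ Nat.card P₀ := by
    have h1 := P₀.pow_dvd_card_of_pow_dvd_card (n := 13) (hcard ▸ dvd_mul_right _ _)
    exact Nat.le_of_dvd Nat.card_pos h1
  haveI : Group.IsNilpotent (P₀ : Subgroup Ct) := P₀.isPGroup'.isNilpotent
  set U := ((K.T t).subgroupOf Ct).subgroupOf (P₀ : Subgroup Ct) with hU
  have hlt : U < ⊤ := by
    refine lt_top_iff_ne_top.mpr fun e => ?_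
    have hle : (P₀ : Subgroup Ct) ≤ (K.T t).subgroupOf Ct := Subgroup.subgroupOf_eq_top.mp e
    have h1 := Subgroup.card_le_of_le hle
    rw [Nat.card_congr (Subgroup.subgroupOfEquivOfLe (inf_le_left : K.T t ≤ Ct)).toEquiv] at h1
    have h2 := K.card_T_le ht
    change _ ≤ Nat.card (K.T t) at h1
    have h3 : Nat.card (P₀ : Subgroup Ct) = Nat.card P₀ := rfl
    omega
  obtain ⟨n, hn, hnU⟩ := SetLike.exists_of_lt (Group.normalizerCondition_of_isNilpotent (G := (P₀ : Subgroup Ct)) U hlt)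
  have hnT : ((n : Ct) : G) ∈ Subgroup.normalizer (K.T t : Set G) := by
    rw [Subgroup.mem_normalizer_iff]
    have key : ∀ m : (P₀ : Subgroup Ct), m ∈ Subgroup.normalizer (U : Set (P₀ : Subgroup Ct)) →
        ∀ y ∈ K.T t, ((m : Ct) : G) * y * ((m : Ct) : G)⁻¹ ∈ K.T t := by
      intro m hm y hy
      exact (Subgroup.mem_normalizer_iff.mp hm ⟨⟨y, hy.1⟩, hP₀ hy⟩).mp hy
    refine fun y => ⟨key n hn y, fun hy => ?_⟩
    have h := key n⁻¹ (inv_mem hn) _ hy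
    simpa [mul_assoc] using h
  apply hnU
  refine ⟨(n : Ct).2, Subgroup.mem_centralizer_singleton_iff.mpr ?_⟩
  exact mul_inv_eq_iff_eq_mul.mp (K.normalizer_fix ht hnT)

end Frame

end Cfsg.Agent.H53.Suz
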