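import Cfsg.Agent.H53.Suz.Classes
import Cfsg.Agent.H53.Suz.Stab

/-!
Two classes of involutions.
-/

set_option autoImplicit false

namespace Cfsg.Agent.H53.Suz

open H18 H18.OrthPair

variable {G : Type*} [Group G] [Finite G] {F : Subgroup G} {z : G} {μ : G → V}

/-- Every involution is conjugate to one centralizing `z`. -/
theorem Setting.exists_conj_cen (S : Setting F z μ) {x : G} (hxx : x * x = 1) :
    ∃ y, IsConj x y ∧ y * z = z * y := by
  haveI : Fact (Nat.Prime 2) := ⟨Nat.prime_two⟩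
  obtain ⟨P, hP⟩ := S.h.isPGroup_two.exists_le_sylow (G := G)
  have hC : Subgroup.centralizer (F : Set G) = (Subgroup.center F).map F.subtype := by
    ext y
    rw [mem_centerMap_iff]
    constructor
    · intro hy
      rcases S.h.cent y hy with rfl | rfl
      · exact ⟨one_mem _, hy⟩
      · exact ⟨S.h.mem, hy⟩
    · exact fun hy => hy.2
  have hcen := centerMap_eq_of_le_twoGroup F P S.h.ext hC hP P.isPGroup'
  have hz : z ∈ (Subgroup.center F).map F.subtype := by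
    rw [mem_centerMap_iff]
    exact ⟨S.h.mem, S.h.comm_x⟩
  rw [← hcen, mem_centerMap_iff] at hz
  have hxp : IsPGroup 2 (Subgroup.zpowers x) := by
    intro ⟨w, hw⟩
    refine ⟨1, Subtype.ext ?_⟩
    rcases (mem_zpowers_iff_pair hxx w).mp hw with rfl | rfl
    · simp
    · simpa [pow_two] using hxx
  obtain ⟨P', hP'⟩ := hxp.exists_le_sylow (G := G)
  obtain ⟨a, ha⟩ := MulAction.exists_smul_eq G P' P
  refine ⟨a * x * a⁻¹, isConj_iff.mpr ⟨a, rfl⟩, hz.2 _ ?_⟩
  rw [← ha, Sylow.coe_subgroup_smul]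
  exact ⟨x, hP' (Subgroup.mem_zpowers x), rfl⟩

/-- Exactly two classes of involutions. -/
theorem Setting.two_classes (S : Setting F z μ) :
    ∃ a b : G, orderOf a = 2 ∧ orderOf b = 2 ∧ ¬ IsConj a b ∧
      ∀ x : G, orderOf x = 2 → IsConj x a ∨ IsConj x b := by
  obtain ⟨g, o, hb⟩ := S.exists_frame
  have K : Frame F z μ g := ⟨S, o, hb⟩
  obtain ⟨r, hr, hφ⟩ := K.φc_surj φ₀
  obtain ⟨p, hp, -, hw⟩ := K.wc_surj w₀
  have ht : K.Co (r * p) φ₀ w₀ := ⟨r, hr, p, hp, hφ, hw, rfl⟩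
  have ht2 : r * p * (r * p) = 1 := by
    rw [K.co_sq ht, show bW φ₀ w₀ + qW w₀ = 0 by decide, show bW φ₀ w₀ + qW φ₀ = 0 by decide,
      K.fr_zero]
  have ht1 : r * p ≠ 1 := by
    intro e
    rw [e] at ht
    exact absurd (K.co_uniq ht (K.co_four (one_mem _))).1 (by decide)
  refine ⟨z, r * p, orderOf_eq_prime (by rw [pow_two, S.h.xx]) S.h.xne,
    orderOf_eq_prime (by rw [pow_two, ht2]) ht1, K.not_conj ht, fun x hx => ?_⟩
  have hxx : x * x = 1 := by rw [← pow_two, ← hx, pow_orderOf_eq_one]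
  have hx1 : x ≠ 1 := fun e => by rw [e, orderOf_one] at hx; omega
  obtain ⟨y, hxy, hyz⟩ := S.exists_conj_cen hxx
  obtain ⟨a, ha⟩ := isConj_iff.mp hxy
  have hyy : y * y = 1 := by rw [← ha, conj_mul, hxx]; simp
  have hy1 : y ≠ 1 := fun e => hx1 (by rw [e] at ha; exact conj_eq_one_iff.mp ha)
  exact (K.classes ht hyy hy1 hyz).imp hxy.trans hxy.trans

end Cfsg.Agent.H53.Suz
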