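import Cfsg.Agent.H53.Suz.Forms
import Cfsg.Agent.H18.PairLocal

/-!
A centralizer of an involution of shape `2^{1+6}.Ω⁻₆(2)`, through its action on the quadratic space.
-/

set_option autoImplicit false

namespace Cfsg.Agent.H53.Suz

open H18

variable {G : Type*} [Group G]

/-- `t` or `1` according to the coefficient. -/
def tw (t : G) (a : ZMod 2) : G := if a = 0 then 1 else t

theorem tw_zero (t : G) : tw t 0 = 1 := if_pos rfl

theorem tw_one (t : G) : tw t 1 = t := if_neg (by decide)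

theorem tw_add {t : G} (ht : t * t = 1) (a b : ZMod 2) : tw t (a + b) = tw t a * tw t b := by
  have h2 : (1 : ZMod 2) + 1 = 0 := by decide
  rcases two_cases a with rfl | rfl <;> rcases two_cases b with rfl | rfl <;>
    simp [tw_zero, tw_one, h2, ht]

theorem tw_mem (t : G) (a : ZMod 2) : tw t a ∈ Subgroup.zpowers t := by
  rcases two_cases a with rfl | rfl
  · rw [tw_zero]; exact one_mem _
  · rw [tw_one]; exact Subgroup.mem_zpowers _

theorem tw_inj {t : G} (ht : t ≠ 1) {a b : ZMod 2} (h : tw t a = tw t b) : a = b := by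
  rcases two_cases a with rfl | rfl <;> rcases two_cases b with rfl | rfl <;>
    simp_all [tw_zero, tw_one, eq_comm]

/-- The hypotheses on the centralizer of `z`, with `μ` the map onto the quadratic space. -/
structure Setting (F : Subgroup G) (z : G) (μ : G → V) : Prop where
  h : SingPt F z
  card_F : Nat.card F = 128
  μ_mul : ∀ p ∈ F, ∀ q ∈ F, μ (p * q) = μ p + μ q
  μ_zero : ∀ p ∈ F, (μ p = 0 ↔ p ∈ Subgroup.zpowers z)
  μ_surj : ∀ v, ∃ p ∈ F, μ p = v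
  μ_sq : ∀ p ∈ F, p * p = tw z (qV (μ p))
  refl2 : ∀ a b, qV a = 1 → qV b = 1 →
    ∃ c, c * z = z * c ∧ ∀ p ∈ F, μ (c * p * c⁻¹) = rV a (rV b (μ p))
  even : ∀ c, c * z = z * c → (∀ p ∈ F, μ (c * (c * p * c⁻¹) * c⁻¹) = μ p) →
    (Set.range fun p : F => μ (c * (p : G) * c⁻¹) + μ (p : G)).ncard = 1 ∨
      (Set.range fun p : F => μ (c * (p : G) * c⁻¹) + μ (p : G)).ncard = 4
  card_C : Nat.card (Subgroup.centralizer ({z} : Set G)) = 2 ^ 13 * 405
  exists_conj : ∃ g : G, g * z * g⁻¹ ∈ F ∧ g * z * g⁻¹ ≠ z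

namespace Setting

variable {F : Subgroup G} {z : G} {μ : G → V} (S : Setting F z μ)
include S

theorem μ_one : μ 1 = 0 := (S.μ_zero 1 (one_mem _)).mpr (one_mem _)

theorem μ_z : μ z = 0 := (S.μ_zero z S.h.mem).mpr (Subgroup.mem_zpowers _)

theorem μ_inv {p : G} (hp : p ∈ F) : μ p⁻¹ = μ p := by
  have h1 := S.μ_mul p hp p⁻¹ (inv_mem hp)
  rw [mul_inv_cancel, S.μ_one] at h1
  calc μ p⁻¹ = (μ p + μ p) + μ p⁻¹ := by rw [add_selfV, zero_add]
    _ = μ p := by rw [add_assoc, ← h1, add_zero]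

/-- The commutator on `F` is the polar form. -/
theorem μ_comm {p q : G} (hp : p ∈ F) (hq : q ∈ F) :
    p * q * p⁻¹ * q⁻¹ = tw z (bV (μ p) (μ q)) := by
  have hz : ∀ a, tw z a ∈ Subgroup.zpowers z := tw_mem z
  have e : p * q * p⁻¹ * q⁻¹ = (p * q * (p * q)) * (q⁻¹ * ((p * p)⁻¹ * q⁻¹)) := by group
  rw [e, S.μ_sq _ (mul_mem hp hq), S.μ_sq p hp, ← S.h.x_central (inv_mem hq) (inv_mem (hz _)),
    ← mul_assoc q⁻¹, ← mul_inv_rev q q, S.μ_sq q hq, S.μ_mul p hp q hq]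
  have hinv : ∀ a, (tw z a)⁻¹ = tw z a := fun a => by
    rcases two_cases a with rfl | rfl
    · rw [tw_zero, inv_one]
    · rw [tw_one, S.h.x_inv]
  rw [hinv, hinv, ← tw_add S.h.xx, ← tw_add S.h.xx, qV_add]
  congr 1
  have h2 : ∀ a b c : ZMod 2, a + b + c + (b + a) = c := by decide
  exact h2 _ _ _

theorem commute_iff {p q : G} (hp : p ∈ F) (hq : q ∈ F) : p * q = q * p ↔ bV (μ p) (μ q) = 0 := by
  constructor
  · intro e
    apply tw_inj S.h.xne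
    rw [← S.μ_comm hp hq, tw_zero, e]; group
  · intro e
    have h1 := S.μ_comm hp hq
    rw [e, tw_zero] at h1
    exact mul_inv_eq_iff_eq_mul.mp (mul_inv_eq_one.mp h1)

omit S in
theorem inv_cen {c : G} (hc : c * z = z * c) : c⁻¹ * z = z * c⁻¹ :=
  (Commute.inv_left (show Commute c z from hc)).eq

theorem conj_F {c p : G} (hc : c * z = z * c) (hp : p ∈ F) : c * p * c⁻¹ ∈ F := S.h.norm c hc p hp

theorem μ_conj_congr {c p q : G} (hc : c * z = z * c) (hp : p ∈ F) (hq : q ∈ F) (e : μ p = μ q) :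
    μ (c * p * c⁻¹) = μ (c * q * c⁻¹) := by
  have h1 : μ (p⁻¹ * q) = 0 := by
    rw [S.μ_mul _ (inv_mem hp) q hq, S.μ_inv hp, e, add_selfV]
  have h2 := (S.μ_zero _ (mul_mem (inv_mem hp) hq)).mp h1
  have h3 := S.h.central_zp_mul' hc h2
  have h4 : c * q * c⁻¹ = c * p * c⁻¹ * (c * (p⁻¹ * q) * c⁻¹) := by group
  rw [h4, h3, S.μ_mul _ (S.conj_F hc hp) _ (mul_mem (inv_mem hp) hq), h1, add_zero]

/-- The action of an element of `C(z)` on the quadratic space. -/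
noncomputable def ρ (c : G) (v : V) : V := μ (c * (S.μ_surj v).choose * c⁻¹)

theorem ρ_eq {c p : G} (hc : c * z = z * c) (hp : p ∈ F) : μ (c * p * c⁻¹) = S.ρ c (μ p) := by
  obtain ⟨h1, h2⟩ := (S.μ_surj (μ p)).choose_spec
  exact S.μ_conj_congr hc hp h1 h2.symm

theorem ρ_add {c : G} (hc : c * z = z * c) (v w : V) : S.ρ c (v + w) = S.ρ c v + S.ρ c w := by
  obtain ⟨p, hp, rfl⟩ := S.μ_surj v
  obtain ⟨q, hq, rfl⟩ := S.μ_surj w
  rw [← S.μ_mul p hp q hq, ← S.ρ_eq hc (mul_mem hp hq), ← S.ρ_eq hc hp, ← S.ρ_eq hc hq,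
    ← S.μ_mul _ (S.conj_F hc hp) _ (S.conj_F hc hq)]
  congr 1
  group

theorem ρ_zero {c : G} (hc : c * z = z * c) : S.ρ c 0 = 0 := by
  rw [← S.μ_one, ← S.ρ_eq hc (one_mem _), mul_one, mul_inv_cancel]

theorem ρ_smul {c : G} (hc : c * z = z * c) (a : ZMod 2) (v : V) :
    S.ρ c (a • v) = a • S.ρ c v := by
  rcases two_cases a with rfl | rfl
  · rw [zero_smul, zero_smul, S.ρ_zero hc]
  · rw [one_smul, one_smul]

theorem ρ_mul {c d : G} (hc : c * z = z * c) (hd : d * z = z * d) (v : V) :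
    S.ρ (c * d) v = S.ρ c (S.ρ d v) := by
  obtain ⟨p, hp, rfl⟩ := S.μ_surj v
  have hcd : c * d * z = z * (c * d) := by rw [mul_assoc, hd, ← mul_assoc, hc, mul_assoc]
  rw [← S.ρ_eq hcd hp, ← S.ρ_eq hd hp, ← S.ρ_eq hc (S.conj_F hd hp)]
  congr 1
  group

theorem ρ_one (v : V) : S.ρ 1 v = v := by
  obtain ⟨p, hp, rfl⟩ := S.μ_surj v
  rw [← S.ρ_eq (by simp) hp]
  simp

theorem ρ_inv {c : G} (hc : c * z = z * c) {v w : V} (e : S.ρ c v = w) : S.ρ c⁻¹ w = v := by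
  rw [← e, ← S.ρ_mul (inv_cen hc) hc, inv_mul_cancel, S.ρ_one]

theorem ρ_inj {c : G} (hc : c * z = z * c) {v w : V} (e : S.ρ c v = S.ρ c w) : v = w :=
  (S.ρ_inv hc e).symm.trans (S.ρ_inv hc rfl)

theorem ρ_qV {c : G} (hc : c * z = z * c) (v : V) : qV (S.ρ c v) = qV v := by
  obtain ⟨p, hp, rfl⟩ := S.μ_surj v
  apply tw_inj S.h.xne
  rw [← S.ρ_eq hc hp, ← S.μ_sq p hp, ← S.μ_sq _ (S.conj_F hc hp)]
  rw [show c * p * c⁻¹ * (c * p * c⁻¹) = c * (p * p) * c⁻¹ by group]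
  exact S.h.central_zp_mul' hc (S.h.sq hp)

theorem ρ_bV {c : G} (hc : c * z = z * c) (v w : V) : bV (S.ρ c v) (S.ρ c w) = bV v w := by
  have h1 := S.ρ_qV hc (v + w)
  rw [S.ρ_add hc, qV_add, qV_add, S.ρ_qV hc, S.ρ_qV hc] at h1
  exact add_left_cancel h1

/-- `F` is exactly the kernel of the action. -/
theorem mem_F_of_ρ [Finite G] {c : G} (hc : c * z = z * c) (h : ∀ v, S.ρ c v = v) : c ∈ F := by
  refine S.h.mem_of_disp hc fun q hq => ?_
  refine (S.μ_zero _ (mul_mem (inv_mem hq) (S.conj_F hc hq))).mp ?_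
  rw [S.μ_mul _ (inv_mem hq) _ (S.conj_F hc hq), S.μ_inv hq, S.ρ_eq hc hq, h, add_selfV]

theorem ρ_of_mem {c : G} (hc : c ∈ F) (v : V) : S.ρ c v = v := by
  obtain ⟨p, hp, rfl⟩ := S.μ_surj v
  rw [← S.ρ_eq (S.h.comm_x c hc) hp, S.μ_mul _ (mul_mem hc hp) _ (inv_mem hc),
    S.μ_mul c hc p hp, S.μ_inv hc, add_comm (μ c) (μ p), add_assoc, add_selfV, add_zero]

/-- A product of two reflections is induced. -/
theorem exists_refl2 {a b : V} (ha : qV a = 1) (hb : qV b = 1) :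
    ∃ c, c * z = z * c ∧ ∀ v, S.ρ c v = rV a (rV b v) := by
  obtain ⟨c, hc, h⟩ := S.refl2 a b ha hb
  refine ⟨c, hc, fun v => ?_⟩
  obtain ⟨p, hp, rfl⟩ := S.μ_surj v
  rw [← S.ρ_eq hc hp, h p hp]

theorem exists_to_e {v : V} (hq : qV v = 0) (h0 : v ≠ 0) :
    ∃ c, c * z = z * c ∧ S.ρ c v = e₁ := by
  obtain ⟨a, ha, b, hb, e⟩ := point_transitive v hq h0
  obtain ⟨c, hc, h⟩ := S.exists_refl2 ha hb
  exact ⟨c, hc, by rw [h, e]⟩

/-- An involutory action has residual space of order 1 or 4. -/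
theorem resid_card {c : G} (hc : c * z = z * c) (h : ∀ v, S.ρ c (S.ρ c v) = v) :
    (Set.range fun v => S.ρ c v + v).ncard = 1 ∨ (Set.range fun v => S.ρ c v + v).ncard = 4 := by
  have e : (Set.range fun p : F => μ (c * (p : G) * c⁻¹) + μ (p : G)) =
      Set.range fun v => S.ρ c v + v := by
    ext w
    constructor
    · rintro ⟨⟨p, hp⟩, rfl⟩
      exact ⟨μ p, by simp only [S.ρ_eq hc hp]⟩
    · rintro ⟨v, rfl⟩
      obtain ⟨p, hp, rfl⟩ := S.μ_surj v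
      exact ⟨⟨p, hp⟩, by simp only [S.ρ_eq hc hp]⟩
  rw [← e]
  refine S.even c hc fun p hp => ?_
  rw [S.ρ_eq hc (S.conj_F hc hp), S.ρ_eq hc hp, h]

variable [Finite G]

/-- Involutions of `F` other than `z` are conjugate to a fixed one above `e₁`. -/
theorem conj_to_e {x : G} (hxF : x ∈ F) (hxx : x * x = 1) (hx1 : x ≠ 1) (hxz : x ≠ z) {b : G}
    (hbF : b ∈ F) (hb : μ b = e₁) : ∃ c, c * z = z * c ∧ c * x * c⁻¹ = b := by
  have h0 : μ x ≠ 0 := fun e => by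
    rcases S.h.pair ((S.μ_zero x hxF).mp e) with e' | e'
    exacts [hx1 e', hxz e']
  have hq : qV (μ x) = 0 := tw_inj S.h.xne (by rw [← S.μ_sq x hxF, hxx, tw_zero])
  obtain ⟨c, hc, e⟩ := S.exists_to_e hq h0
  have hy : c * x * c⁻¹ ∈ F := S.conj_F hc hxF
  have h1 : (c * x * c⁻¹)⁻¹ * b ∈ Subgroup.zpowers z := by
    rw [← S.μ_zero _ (mul_mem (inv_mem hy) hbF), S.μ_mul _ (inv_mem hy) b hbF, S.μ_inv hy,
      S.ρ_eq hc hxF, e, hb, add_selfV]
  rcases S.h.pair h1 with e' | e'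
  · exact ⟨c, hc, inv_mul_eq_one.mp e'⟩
  · have hy1 : c * x * c⁻¹ ≠ 1 := fun e => hx1 (conj_eq_one_iff.mp e)
    have hyz : c * x * c⁻¹ ≠ z := fun e => hxz (by
      have : c * x * c⁻¹ = c * z * c⁻¹ := by rw [e, hc, mul_inv_cancel_right]
      simpa using this)
    obtain ⟨u, hu, hue⟩ := S.h.exists_translate hy hy1 hyz
    refine ⟨u * c, by rw [mul_assoc, hc, ← mul_assoc, S.h.comm_x u hu, mul_assoc], ?_⟩
    calc u * c * x * (u * c)⁻¹ = u * (c * x * c⁻¹) * u⁻¹ := by group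
      _ = z * (c * x * c⁻¹) := hue
      _ = b := by
        rw [inv_mul_eq_iff_eq_mul] at e'
        rw [e', S.h.comm_x _ hy]

/-- A pair of orthogonal conjugates with the second above `e₁`. -/
theorem exists_frame : ∃ g : G, OrthPair F z g ∧ μ (g * z * g⁻¹) = e₁ := by
  obtain ⟨g, hg, hne⟩ := S.exists_conj
  have hzz := S.h.xx
  have hgg : g * z * g⁻¹ * (g * z * g⁻¹) = 1 := by rw [conj_mul, hzz]; simp
  have hg1 : g * z * g⁻¹ ≠ 1 := fun e => S.h.xne (conj_eq_one_iff.mp e)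
  obtain ⟨b, hb, hbe⟩ := S.μ_surj e₁
  obtain ⟨c, hc, e⟩ := S.conj_to_e hg hgg hg1 hne hb hbe
  have e2 : c * g * z * (c * g)⁻¹ = b := by rw [← e]; group
  refine ⟨c * g, S.h.orthPair (by rw [S.card_F]; norm_num) (by rw [e2]; exact hb) ?_, by rw [e2, hbe]⟩
  rw [e2]
  intro h
  rw [h, S.μ_z] at hbe
  exact absurd hbe (by decide)

end Setting

end Cfsg.Agent.H53.Suz
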