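import Cfsg.Prelude.Def_Classical
import Cfsg.Agent.H53.Suz.Setting
import Cfsg.Agent.H97.M22.OMinusSix
import Cfsg.Agent.H18.ExtraspecialForm
import Cfsg.Agent.H51.FStar
import Cfsg.Agent.H4.DiscClass
import Cfsg.Agent.H4.Orders
import Cfsg.Agent.H5.FrameRot

/-!
The setting from a centralizer with extraspecial generalized Fitting subgroup of order `2^7` and
quotient the derived group of the elliptic orthogonal group in dimension six.
-/

set_option autoImplicit false
set_option synthInstance.maxSize 20000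
set_option synthInstance.maxHeartbeats 400000

namespace Cfsg.Agent.H53.Suz

open QuadraticMap

/-- Isomorphisms preserve being extraspecial. -/
theorem extraspecial_equiv {A B : Type*} [Group A] [Group B] (e : A ≃* B) {p : ℕ}
    (h : Cfsg.IsExtraspecial p A) : Cfsg.IsExtraspecial p B := by
  obtain ⟨⟨hp, hfr, hcom⟩, hcard⟩ := h
  have hcen : (Subgroup.center A).map e.toMonoidHom = Subgroup.center B := by
    ext v
    constructor
    · rintro ⟨u, hu, rfl⟩
      refine Subgroup.mem_center_iff.mpr fun w => ?_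
      obtain ⟨w', rfl⟩ := e.surjective w
      exact (map_mul e _ _).symm.trans
        ((congrArg e (Subgroup.mem_center_iff.mp hu w')).trans (map_mul e _ _))
    · intro hv
      obtain ⟨u, rfl⟩ := e.surjective v
      refine ⟨u, Subgroup.mem_center_iff.mpr fun w => e.injective ?_, rfl⟩
      rw [map_mul, map_mul]
      exact Subgroup.mem_center_iff.mp hv (e w)
  refine ⟨⟨hp.of_equiv e, ?_, ?_⟩, ?_⟩
  · rw [← hcen, ← hfr]
    apply le_antisymm
    · intro v hv
      obtain ⟨u, rfl⟩ := e.surjective v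
      refine ⟨u, ?_, rfl⟩
      have := frattini_le_comap_frattini_of_surjective (φ := e.symm.toMonoidHom) e.symm.surjective hv
      have h' : e.symm (e u) ∈ frattini A := this
      rwa [e.symm_apply_apply] at h'
    · rw [Subgroup.map_le_iff_le_comap]
      exact frattini_le_comap_frattini_of_surjective (φ := e.toMonoidHom) e.surjective
  · rw [← hcen, ← hcom, commutator_def, commutator_def, Subgroup.map_commutator,
      Subgroup.map_top_of_surjective _ e.surjective]
  · rw [← hcen, Subgroup.card_map_of_injective e.injective, hcard]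

theorem neg_eqV : ∀ x : V, -x = x := by decide +kernel

/-- The six coordinate space. -/
abbrev VP : Type := (Fin 2 ⊕ Fin 2) ⊕ Fin 2 → ZMod 2

theorem sub_swapVP (a b : VP) : a - b = b - a := by
  funext i
  have h : ∀ u w : ZMod 2, u - w = w - u := by decide
  exact h _ _

/-- The six coordinates as a hyperbolic line plus the four-dimensional part. -/
def coords : ((Fin 2 ⊕ Fin 2) ⊕ Fin 2 → ZMod 2) ≃ₗ[ZMod 2] V where
  toFun x := (x (.inl (.inl 0)),
    (x (.inl (.inl 1)), x (.inl (.inr 1)), x (.inr 0), x (.inr 1)), x (.inl (.inr 0)))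
  invFun v := Sum.elim (Sum.elim ![v.1, v.2.1.1] ![v.2.2, v.2.1.2.1]) ![v.2.1.2.2.1, v.2.1.2.2.2]
  map_add' _ _ := rfl
  map_smul' _ _ := rfl
  left_inv x := by
    funext i
    rcases i with (i | i) | i <;> fin_cases i <;> rfl
  right_inv _ := rfl

theorem qV_coords (x : (Fin 2 ⊕ Fin 2) ⊕ Fin 2 → ZMod 2) :
    qV (coords x) = H97.M22.qSix x := by
  rw [H97.M22.qSix, Cfsg.quadFormMinus, Fin.sum_univ_two]
  show x (.inl (.inl 0)) * x (.inl (.inr 0)) + (x (.inl (.inl 1)) * x (.inl (.inr 1)) +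
    (x (.inr 0) * x (.inr 0) + x (.inr 0) * x (.inr 1) + x (.inr 1) * x (.inr 1))) = _
  ring

theorem card_Omega_six :
    Nat.card (Cfsg.Omega (ZMod 2) (Cfsg.quadFormMinus 2 (ZMod 2) 1 1)) = 25920 := by
  letI : Fintype (GaloisField 2 2) := Fintype.ofFinite _
  have hF : Fintype.card (GaloisField 2 2) = 4 := by
    rw [← Nat.card_eq_fintype_card, GaloisField.card 2 2 (by norm_num)]; norm_num
  obtain ⟨e⟩ := S0303.result (F := ZMod 2) (K := GaloisField 2 2) (q := 2) (ZMod.card 2)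
    (by rw [hF]; norm_num) 1 1 H97.M22.aniso_two
  obtain ⟨u⟩ := H97.M22.nonempty_SU_equiv_PSU hF
  set Om := Cfsg.Omega (ZMod 2) (Cfsg.quadFormMinus 2 (ZMod 2) 1 1) with hOm
  have h1 : (Subgroup.center Om).index = 25920 := by
    rw [Subgroup.index_eq_card, Nat.card_congr e.toEquiv, ← Nat.card_congr u.toEquiv,
      H97.M22.card_SU_four hF]
  have h2 := (Subgroup.center Om).card_mul_index
  rw [h1] at h2
  have h3 : Nat.card Om ∣ 51840 := H97.M22.card_OSix ▸ Subgroup.card_subgroup_dvd_card Om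
  have hpos : 0 < Nat.card (Subgroup.center Om) := Nat.card_pos
  have h4 : Nat.card (Subgroup.center Om) ≤ 2 := by
    have := Nat.le_of_dvd (by norm_num) h3
    omega
  by_cases h5 : Nat.card (Subgroup.center Om) = 1
  · rw [h5, one_mul] at h2
    exact h2.symm
  · exfalso
    have h6 : Om = ⊤ := Subgroup.eq_top_of_card_eq _ (by
      show Nat.card Om = Nat.card H97.M22.OSix
      rw [H97.M22.card_OSix]
      omega)
    apply h5
    have hbot : Subgroup.center Om = ⊥ := by
      rw [Subgroup.eq_bot_iff_forall]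
      intro x hx
      refine Subtype.ext (H97.M22.center_OSix (Subgroup.mem_center_iff.mpr fun y => ?_))
      exact congrArg Subtype.val (Subgroup.mem_center_iff.mp hx ⟨y, h6.symm ▸ Subgroup.mem_top y⟩)
    rw [hbot, Subgroup.card_bot]

variable {G : Type*} [Group G] [Finite G] {F : Subgroup G} {z : G}

/-- The action of `C(z)` on a space isometric to `F / ⟨z⟩`. -/
theorem exists_action (h : H18.SingPt F z) {X : Type*} [AddCommGroup X] [Module (ZMod 2) X]
    (Qx : QuadraticForm (ZMod 2) X) (μ : G → X)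
    (hmul : ∀ p ∈ F, ∀ q ∈ F, μ (p * q) = μ p + μ q)
    (hzero : ∀ p ∈ F, (μ p = 0 ↔ p ∈ Subgroup.zpowers z))
    (hsurj : ∀ v, ∃ p ∈ F, μ p = v) (hsq : ∀ p ∈ F, Qx (μ p) = 0 ↔ p * p = 1) :
    ∃ ρ : Subgroup.centralizer ({z} : Set G) →* H5.orth Qx,
      ρ.ker = F.subgroupOf (Subgroup.centralizer ({z} : Set G)) ∧
      ∀ c, ∀ p ∈ F, (ρ c : X ≃ₗ[ZMod 2] X) (μ p) = μ ((c : G) * p * (c : G)⁻¹) := by
  classical
  have hone : μ 1 = 0 := (hzero 1 (one_mem _)).mpr (one_mem _)
  have hadd : ∀ v : X, v + v = 0 := fun v => by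
    rw [← two_smul (ZMod 2) v, show (2 : ZMod 2) = 0 from rfl, zero_smul]
  have hinv : ∀ p ∈ F, μ p⁻¹ = μ p := fun p hp => by
    have h1 := hmul p hp p⁻¹ (inv_mem hp)
    rw [mul_inv_cancel, hone] at h1
    calc μ p⁻¹ = (μ p + μ p) + μ p⁻¹ := by rw [hadd, zero_add]
      _ = μ p := by rw [add_assoc, ← h1, add_zero]
  have hC : ∀ c : Subgroup.centralizer ({z} : Set G), (c : G) * z = z * (c : G) :=
    fun c => Subgroup.mem_centralizer_singleton_iff.mp c.2
  have hcn : ∀ (c : Subgroup.centralizer ({z} : Set G)) {p}, p ∈ F →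
      (c : G) * p * (c : G)⁻¹ ∈ F := fun c p hp => h.norm _ (hC c) p hp
  have hwd : ∀ (c : Subgroup.centralizer ({z} : Set G)) p, p ∈ F → ∀ q ∈ F, μ p = μ q →
      μ ((c : G) * p * (c : G)⁻¹) = μ ((c : G) * q * (c : G)⁻¹) := by
    intro c p hp q hq e
    have h1 : μ (p⁻¹ * q) = 0 := by rw [hmul _ (inv_mem hp) q hq, hinv p hp, e, hadd]
    have h2 := h.central_zp_mul' (hC c) ((hzero _ (mul_mem (inv_mem hp) hq)).mp h1)
    rw [show (c : G) * q * (c : G)⁻¹ =
      (c : G) * p * (c : G)⁻¹ * ((c : G) * (p⁻¹ * q) * (c : G)⁻¹) by group, h2,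
      hmul _ (hcn c hp) _ (mul_mem (inv_mem hp) hq), h1, add_zero]
  let f : Subgroup.centralizer ({z} : Set G) → X → X := fun c v =>
    μ ((c : G) * (hsurj v).choose * (c : G)⁻¹)
  have hf : ∀ c, ∀ p ∈ F, f c (μ p) = μ ((c : G) * p * (c : G)⁻¹) := fun c p hp =>
    hwd c _ (hsurj (μ p)).choose_spec.1 p hp (hsurj (μ p)).choose_spec.2
  have hfadd : ∀ c v w, f c (v + w) = f c v + f c w := by
    intro c v w
    obtain ⟨p, hp, rfl⟩ := hsurj v
    obtain ⟨q, hq, rfl⟩ := hsurj w
    rw [← hmul p hp q hq, hf c _ (mul_mem hp hq), hf c p hp, hf c q hq,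
      ← hmul _ (hcn c hp) _ (hcn c hq)]
    congr 1
    group
  have hfmul : ∀ c d v, f (c * d) v = f c (f d v) := by
    intro c d v
    obtain ⟨p, hp, rfl⟩ := hsurj v
    rw [hf _ p hp, hf d p hp, hf c _ (hcn d hp)]
    congr 1
    show (c : G) * d * p * ((c : G) * d)⁻¹ = _
    group
  have hfone : ∀ v, f 1 v = v := by
    intro v
    obtain ⟨p, hp, rfl⟩ := hsurj v
    rw [hf _ p hp]
    simp
  have hfq : ∀ c v, Qx (f c v) = Qx v := by
    intro c v
    obtain ⟨p, hp, rfl⟩ := hsurj v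
    have key : ∀ a b : ZMod 2, (a = 0 ↔ b = 0) → a = b := by decide
    refine key _ _ ?_
    rw [hf c p hp, hsq _ (hcn c hp), hsq p hp, conj_mul]
    exact conj_eq_one_iff
  have hfsmul : ∀ c (a : ZMod 2) v, f c (a • v) = a • f c v := by
    intro c a v
    rcases two_cases a with rfl | rfl
    · have h0 := hfadd c 0 0
      rw [add_zero] at h0
      rw [zero_smul, zero_smul]
      exact left_eq_add.mp h0
    · rw [one_smul, one_smul]
  let L : Subgroup.centralizer ({z} : Set G) → X ≃ₗ[ZMod 2] X := fun c =>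
    { toFun := f c
      invFun := f c⁻¹
      map_add' := hfadd c
      map_smul' := hfsmul c
      left_inv := fun v => by rw [← hfmul, inv_mul_cancel, hfone]
      right_inv := fun v => by rw [← hfmul, mul_inv_cancel, hfone] }
  let ρ : Subgroup.centralizer ({z} : Set G) →* H5.orth Qx :=
    MonoidHom.mk' (fun c => ⟨L c, hfq c⟩) fun c d => H5.orth_ext (hfmul c d)
  refine ⟨ρ, ?_, hf⟩
  ext c
  rw [MonoidHom.mem_ker, Subgroup.mem_subgroupOf]
  constructor
  · intro e
    refine h.mem_of_disp (hC c) fun q hq => ?_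
    refine (hzero _ (mul_mem (inv_mem hq) (hcn c hq))).mp ?_
    have e1 : f c (μ q) = μ q := congrArg (fun φ : H5.orth Qx => (φ : X ≃ₗ[ZMod 2] X) (μ q)) e
    rw [hf c q hq] at e1
    rw [hmul _ (inv_mem hq) _ (hcn c hq), hinv q hq, e1, hadd]
  · intro hc
    refine H5.orth_ext fun v => ?_
    obtain ⟨p, hp, rfl⟩ := hsurj v
    show f c (μ p) = μ p
    rw [hf c p hp, hmul _ (mul_mem hc hp) _ (inv_mem hc), hmul _ hc p hp, hinv _ hc,
      add_comm (μ (c : G)), add_assoc, hadd, add_zero]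

/-- The setting follows from the hypotheses of the classification of involutions. -/
theorem exists_setting (hz : orderOf z = 2) (Q : Subgroup (Subgroup.centralizer ({z} : Set G)))
    [Q.Normal] (hF : Cfsg.generalizedFittingSubgroup (Subgroup.centralizer ({z} : Set G)) = Q)
    (hQ : Cfsg.IsExtraspecial 2 Q) (hcard : Nat.card Q = 2 ^ 7)
    (e : (Subgroup.centralizer ({z} : Set G)) ⧸ Q ≃*
      Cfsg.Omega (ZMod 2) (Cfsg.quadFormMinus 2 (ZMod 2) 1 1))
    (hnwc : ∃ g : G, (∃ hq : g * z * g⁻¹ ∈ Subgroup.centralizer ({z} : Set G),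
      (⟨g * z * g⁻¹, hq⟩ : Subgroup.centralizer ({z} : Set G)) ∈ Q) ∧ g * z * g⁻¹ ≠ z) :
    ∃ (F : Subgroup G) (μ : G → V), Setting F z μ := by
  classical
  haveI : Fact (Nat.Prime 2) := ⟨Nat.prime_two⟩
  set E := Q.map (Subgroup.centralizer ({z} : Set G)).subtype with hE
  have hEext : Cfsg.IsExtraspecial 2 E :=
    extraspecial_equiv (Q.equivMapOfInjective (Subgroup.centralizer ({z} : Set G)).subtype (Subgroup.centralizer ({z} : Set G)).subtype_injective) hQ
  have hzz : z * z = 1 := by rw [← pow_two, ← hz, pow_orderOf_eq_one]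
  have hz1 : z ≠ 1 := fun h => by rw [h, orderOf_one] at hz; omega
  have hzC : z ∈ (Subgroup.centralizer ({z} : Set G)) := Subgroup.mem_centralizer_singleton_iff.mpr rfl
  have hcQ : Subgroup.centralizer (Q : Set (Subgroup.centralizer ({z} : Set G))) ≤ Q := by
    have h := H51.centralizer_generalizedFitting_le (Subgroup.centralizer ({z} : Set G))
    rwa [hF] at h
  have hzQ : (⟨z, hzC⟩ : (Subgroup.centralizer ({z} : Set G))) ∈ Q :=
    hcQ fun q _ => Subtype.ext (Subgroup.mem_centralizer_singleton_iff.mp q.2)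
  have hzE : z ∈ E := ⟨⟨z, hzC⟩, hzQ, rfl⟩
  have hEmem : ∀ y, y ∈ E ↔ ∃ hy : y ∈ (Subgroup.centralizer ({z} : Set G)), (⟨y, hy⟩ : (Subgroup.centralizer ({z} : Set G))) ∈ Q := by
    intro y
    constructor
    · rintro ⟨q, hq, rfl⟩
      exact ⟨q.2, hq⟩
    · rintro ⟨hy, hyQ⟩
      exact ⟨⟨y, hy⟩, hyQ, rfl⟩
  have hcommz : ∀ q ∈ E, q * z = z * q := by
    rintro _ ⟨q, -, rfl⟩
    exact Subgroup.mem_centralizer_singleton_iff.mp q.2
  have hcard' : Nat.card E = 2 ^ 7 := by
    rw [hE, Subgroup.card_map_of_injective (Subgroup.centralizer ({z} : Set G)).subtype_injective, hcard]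
  obtain ⟨w, hw1, hww, hwmem⟩ := H18.center_eq_pair hEext
  have hzw : (⟨z, hzE⟩ : E) = w :=
    ((hwmem _).mp (Subgroup.mem_center_iff.mpr fun v => Subtype.ext (hcommz v v.2))).resolve_left
      fun e => hz1 (congrArg Subtype.val e)
  have h : H18.SingPt E z := by
    refine ⟨hzz, hz1, hzE, hEext, fun y hy => ?_, hcommz, fun a ha q hq => ?_⟩
    · have hyC : y ∈ (Subgroup.centralizer ({z} : Set G)) := Subgroup.mem_centralizer_singleton_iff.mpr (hy z hzE).symm
      have hyQ : (⟨y, hyC⟩ : (Subgroup.centralizer ({z} : Set G))) ∈ Q :=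
        hcQ fun q hq => Subtype.ext (hy q ⟨q, hq, rfl⟩)
      have hyE : y ∈ E := (hEmem y).mpr ⟨hyC, hyQ⟩
      rcases (hwmem ⟨y, hyE⟩).mp (Subgroup.mem_center_iff.mpr fun v => Subtype.ext (hy v v.2))
        with e' | e'
      · exact Or.inl (congrArg Subtype.val e')
      · exact Or.inr (congrArg Subtype.val (e'.trans hzw.symm))
    · obtain ⟨hqC, hqQ⟩ := (hEmem q).mp hq
      have haC : a ∈ (Subgroup.centralizer ({z} : Set G)) := Subgroup.mem_centralizer_singleton_iff.mpr ha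
      exact (hEmem _).mpr ⟨mul_mem (mul_mem haC hqC) (inv_mem haC),
        (inferInstance : Q.Normal).conj_mem _ hqQ ⟨a, haC⟩⟩
  -- the quadratic space
  obtain ⟨inst, Qf, hnd, hdim, hQf⟩ := H18.exists_quadSpace hEext (n := 3) (by rw [hcard'])
  letI := inst
  haveI : Finite (Additive (Abelianization E)) := Finite.of_equiv _ Additive.ofMul
  haveI : FiniteDimensional (ZMod 2) (Additive (Abelianization E)) := Module.Finite.of_finite
  let m : G → Additive (Abelianization E) := fun x =>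
    if hx : x ∈ E then Additive.ofMul (Abelianization.of ⟨x, hx⟩) else 0
  have hm : ∀ x (hx : x ∈ E), m x = Additive.ofMul (Abelianization.of ⟨x, hx⟩) := fun x hx =>
    dif_pos hx
  have mmul : ∀ p ∈ E, ∀ q ∈ E, m (p * q) = m p + m q := fun p hp q hq => by
    rw [hm p hp, hm q hq, hm _ (mul_mem hp hq), ← ofMul_mul, ← map_mul]; rfl
  have mzero : ∀ p ∈ E, (m p = 0 ↔ p ∈ Subgroup.zpowers z) := fun p hp => by
    have h1 : m p = 0 ↔ Abelianization.of (⟨p, hp⟩ : E) = 1 := by rw [hm p hp]; exact Iff.rfl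
    rw [h1, ← MonoidHom.mem_ker, Abelianization.ker_of, hEext.1.2.2]
    exact h.center_iff _
  have msurj : ∀ v, ∃ p ∈ E, m p = v := fun v => by
    obtain ⟨⟨p, hp⟩, e'⟩ := QuotientGroup.mk_surjective (Additive.toMul v)
    exact ⟨p, hp, by rw [hm p hp]; exact congrArg Additive.ofMul e'⟩
  have msq : ∀ p ∈ E, Qf (m p) = 0 ↔ p * p = 1 := fun p hp => by
    rw [hm p hp, hQf, H18.sqForm_eq_zero_iff, Subtype.ext_iff]; rfl
  -- transport along a linear equivalence
  have act : ∀ {X : Type} [AddCommGroup X] [Module (ZMod 2) X] (Qx : QuadraticForm (ZMod 2) X)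
      (γ : Additive (Abelianization E) ≃ₗ[ZMod 2] X), (∀ v, Qx (γ v) = Qf v) →
      ∃ ρ : (Subgroup.centralizer ({z} : Set G)) →* H5.orth Qx, Nat.card ρ.range = 25920 ∧
        ∀ c : (Subgroup.centralizer ({z} : Set G)), ∀ p ∈ E, (ρ c : X ≃ₗ[ZMod 2] X) (γ (m p)) = γ (m ((c : G) * p * (c : G)⁻¹)) := by
    intro X _ _ Qx γ hγ
    obtain ⟨ρ, hker, hρ⟩ := exists_action h Qx (fun x => γ (m x))
      (fun p hp q hq => by rw [mmul p hp q hq, map_add])
      (fun p hp => by rw [← mzero p hp]; exact γ.map_eq_zero_iff)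
      (fun v => by
        obtain ⟨p, hp, e'⟩ := msurj (γ.symm v)
        exact ⟨p, hp, by rw [e', γ.apply_symm_apply]⟩)
      (fun p hp => by rw [hγ, msq p hp])
    refine ⟨ρ, ?_, hρ⟩
    have hsub : E.subgroupOf (Subgroup.centralizer ({z} : Set G)) = Q := Subgroup.comap_map_eq_self_of_injective (Subgroup.centralizer ({z} : Set G)).subtype_injective Q
    rw [← Subgroup.index_ker, hker, hsub, Subgroup.index_eq_card, Nat.card_congr e.toEquiv,
      card_Omega_six]
  -- the form is elliptic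
  have hno : ¬ ∃ W : Submodule (ZMod 2) (Additive (Abelianization E)),
      (∀ w ∈ W, Qf w = 0) ∧ Module.finrank (ZMod 2) W = 3 := by
    rintro ⟨Ws, hWs, hr⟩
    obtain ⟨γ, hγ⟩ := H4.isom_qPlus_of_singular hnd hdim Ws hWs hr
    obtain ⟨ρ, hρc, -⟩ := act _ γ hγ
    have h1 := Subgroup.card_subgroup_dvd_card ρ.range
    have h2 : Nat.card (H5.orth (H4.qPlus 3 (ZMod 2))) = 40320 := by
      have h3 := H4.card_qIsoms_qPlus (F := ZMod 2) 2
      simp [Finset.prod_range_succ, ZMod.card] at h3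
      have h4 : Nat.card (H5.orth (H4.qPlus 3 (ZMod 2))) =
          Nat.card (H4.qIsoms (H4.qPlus 3 (ZMod 2))) :=
        Nat.card_congr (Equiv.subtypeEquivRight fun _ => Iff.rfl)
      omega
    rw [hρc, h2] at h1
    norm_num at h1
  obtain ⟨ζ, γ, hζ, hγ⟩ := H4.isom_qMinus_of_no_singular hnd hdim hno
  have hζ1 : ζ = 1 := by
    rcases two_cases ζ with rfl | rfl
    · exact absurd (show (0 : ZMod 2) ^ 2 + 0 + 0 = 0 by ring) (hζ 0)
    · rfl
  subst hζ1
  have hγ5 : ∀ v, H5.qMinus 2 (ZMod 2) 1 1 (γ v) = Qf v := fun v => by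
    rw [H5.coe_qMinus, ← H4.coe_qMinus]
    exact hγ v
  obtain ⟨ρ, hρc, hρ⟩ := act (H5.qMinus 2 (ZMod 2) 1 1) γ hγ5
  -- the orthogonal group
  have hQnd := H5.qMinus_nondegenerate 2 (F := ZMod 2) H97.M22.aniso_two
  have hn : 5 ≤ Module.finrank (ZMod 2) ((Fin 2 ⊕ Fin 2) ⊕ Fin 2 → ZMod 2) := by simp
  have hcardO : Nat.card (H5.orth (H5.qMinus 2 (ZMod 2) 1 1)) = 51840 := by
    rw [← Nat.card_congr (H5.isoEquiv (H5.qMinus 2 (ZMod 2) 1 1) H97.M22.qSix_eq).toEquiv]
    exact H97.M22.card_OSix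
  haveI : Finite (H5.orth (H5.qMinus 2 (ZMod 2) 1 1)) := Nat.finite_of_card_ne_zero (by omega)
  have hidx : ρ.range.index = 2 := by
    have h1 := ρ.range.card_mul_index
    rw [hρc, hcardO] at h1
    omega
  haveI : ρ.range.Normal := Subgroup.normal_of_index_eq_two hidx
  have hcomm : commutator (H5.orth (H5.qMinus 2 (ZMod 2) 1 1)) = ρ.range := by
    apply Subgroup.eq_of_le_of_card_ge
    · refine Subgroup.Normal.quotient_commutative_iff_commutator_le.mp ?_
      haveI : IsCyclic ((H5.orth (H5.qMinus 2 (ZMod 2) 1 1)) ⧸ ρ.range) :=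
        isCyclic_of_prime_card (p := 2) (by rw [← Subgroup.index_eq_card, hidx])
      exact ⟨⟨fun a b => (IsCyclic.commGroup (α := (H5.orth (H5.qMinus 2 (ZMod 2) 1 1)) ⧸ ρ.range)).mul_comm a b⟩⟩
    · have h1 : (commutator (H5.orth (H5.qMinus 2 (ZMod 2) 1 1))).index = 2 := by
        rw [← H5.Omega_index _ H97.M22.qSix_eq]
        have h2 := (Cfsg.Omega (ZMod 2) H97.M22.qSix).card_mul_index
        rw [card_Omega_six] at h2
        have h3 := H97.M22.card_OSix
        change 25920 * _ = Nat.card H97.M22.OSix at h2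
        omega
      have h4 := (commutator (H5.orth (H5.qMinus 2 (ZMod 2) 1 1))).card_mul_index
      rw [h1, hcardO] at h4
      rw [hρc]
      omega
  have hdick : ∀ g ∈ ρ.range, H5.dick g = 1 := fun g hg =>
    H5.dick_eq_one_of_mem_commutator hQnd hn (hcomm.symm ▸ hg)
  have hq6 : ∀ v, qV (coords (γ v)) = Qf v := fun v => by
    rw [qV_coords, ← H97.M22.qSix_eq, hγ5]
  let μ : G → V := fun x => coords (γ (m x))
  have μmul : ∀ p ∈ E, ∀ q ∈ E, μ (p * q) = μ p + μ q := fun p hp q hq => by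
    simp only [μ, mmul p hp q hq, map_add]
  have μsurj : ∀ v, ∃ p ∈ E, μ p = v := fun v => by
    obtain ⟨p, hp, e'⟩ := msurj (γ.symm (coords.symm v))
    exact ⟨p, hp, by simp [μ, e']⟩
  have μsq : ∀ p ∈ E, p * p = tw z (qV (μ p)) := fun p hp => by
    have h1 := msq p hp
    rw [show qV (μ p) = Qf (m p) from hq6 _]
    rcases two_cases (Qf (m p)) with h2 | h2 <;> rw [h2]
    · rw [tw_zero, h1.mp h2]
    · rw [tw_one]
      refine (h.pair (h.sq hp)).resolve_left fun h3 => ?_
      rw [h1.mpr h3] at h2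
      exact zero_ne_one h2
  have hρμ : ∀ c : (Subgroup.centralizer ({z} : Set G)), ∀ p ∈ E,
      μ ((c : G) * p * (c : G)⁻¹) = coords ((ρ c : VP ≃ₗ[ZMod 2] VP) (γ (m p))) := fun c p hp => by
    simp only [μ, hρ c p hp]
  refine ⟨E, μ, h, by rw [hcard']; norm_num, μmul, fun p hp => ?_, μsurj, μsq, ?_, ?_, ?_, ?_⟩
  · rw [← mzero p hp]
    simp [μ]
  · intro a b ha hb
    have hnot : ∀ v, H5.qMinus 2 (ZMod 2) 1 1 v ≠ 0 →
        H5.refl (H5.qMinus 2 (ZMod 2) 1 1) v ∉ ρ.range := fun v hv hmem => by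
      have h1 := hdick _ hmem
      rw [H5.dick_refl hQnd hv] at h1
      exact absurd h1 (by decide)
    have hq : ∀ u, qV u = 1 → H5.qMinus 2 (ZMod 2) 1 1 (coords.symm u) = 1 := fun u hu => by
      rw [H97.M22.qSix_eq, ← qV_coords, coords.apply_symm_apply, hu]
    obtain ⟨c, hc⟩ := (Subgroup.mul_mem_iff_of_index_two hidx).mpr (iff_of_false
      (hnot (coords.symm a) (by rw [hq a ha]; exact one_ne_zero))
      (hnot (coords.symm b) (by rw [hq b hb]; exact one_ne_zero)))
    refine ⟨c, Subgroup.mem_centralizer_singleton_iff.mp c.2, fun p hp => ?_⟩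
    have hpolar : ∀ u v, polar (H5.qMinus 2 (ZMod 2) 1 1) (coords.symm u) v = bV (coords v) u := by
      intro u v
      rw [polar, H97.M22.qSix_eq, ← qV_coords, ← qV_coords, ← qV_coords, map_add,
        coords.apply_symm_apply, qV_add, bV_comm (coords v) u]
      ring
    have hr : ∀ u v, qV u = 1 →
        coords ((H5.refl (H5.qMinus 2 (ZMod 2) 1 1) (coords.symm u) :
          VP ≃ₗ[ZMod 2] VP) v) = rV u (coords v) := by
      intro u v hu
      rw [H5.refl_apply, hq u hu, inv_one, one_mul, map_sub, map_smul, coords.apply_symm_apply,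
        hpolar, rV, sub_eq_add_neg]
      rw [neg_eqV]
    rw [hρμ c p hp, hc, H5.orth_mul_apply, hr a _ ha, hr b _ hb]
  · intro c hcz hinv
    have hcC : c ∈ (Subgroup.centralizer ({z} : Set G)) := Subgroup.mem_centralizer_singleton_iff.mpr hcz
    obtain ⟨g, hg⟩ : ∃ g, g = ρ ⟨c, hcC⟩ := ⟨_, rfl⟩
    have hgg : ∀ v, (g : VP ≃ₗ[ZMod 2] VP) ((g : VP ≃ₗ[ZMod 2] VP) v) = v := by
      intro v
      obtain ⟨p, hp, e'⟩ := msurj (γ.symm v)
      have e1 : γ (m p) = v := by rw [e', γ.apply_symm_apply]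
      have h1 := hinv p hp
      rw [← e1, hg, hρ _ p hp, hρ _ _ (h.norm c hcz p hp)]
      exact coords.injective h1
    have hrk : H5.rk g = 0 ∨ H5.rk g = 2 := by
      have hle : H5.resid g ≤ H5.fixer g := by
        rintro _ ⟨x, rfl⟩
        rw [H5.mem_fixer, H5.dLin_apply, map_sub, hgg]
        exact sub_swapVP _ _
      have h1 := H5.rk_add_finrank_fixer g
      have h2 := Submodule.finrank_mono hle
      have h3 := hdick g (hg ▸ ⟨_, rfl⟩)
      rw [Module.finrank_pi] at h1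
      simp only [Fintype.card_sum, Fintype.card_fin] at h1
      change H5.rk g ≤ _ at h2
      rw [H5.dick] at h3
      rcases Nat.even_or_odd (H5.rk g) with ⟨k, hk⟩ | hk
      · omega
      · rw [hk.neg_one_pow] at h3
        exact absurd h3 (by decide)
    have hrange : (Set.range fun p : E => μ (c * (p : G) * c⁻¹) + μ (p : G)) =
        coords '' (H5.resid g : Set ((Fin 2 ⊕ Fin 2) ⊕ Fin 2 → ZMod 2)) := by
      have hval : ∀ p ∈ E, μ (c * p * c⁻¹) + μ p =
          coords (H5.dLin g (γ (m p))) := fun p hp => by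
        have h1 : μ (c * p * c⁻¹) = coords ((g : VP ≃ₗ[ZMod 2] VP) (γ (m p))) := by
          rw [hg]
          exact hρμ ⟨c, hcC⟩ p hp
        rw [H5.dLin_apply, map_sub, ← h1, sub_eq_add_neg]
        rw [neg_eqV]
      ext i
      constructor
      · rintro ⟨⟨p, hp⟩, rfl⟩
        exact ⟨_, ⟨γ (m p), rfl⟩, (hval p hp).symm⟩
      · rintro ⟨_, ⟨v, rfl⟩, rfl⟩
        obtain ⟨p, hp, e'⟩ := msurj (γ.symm v)
        exact ⟨⟨p, hp⟩, by simp only [hval p hp, e', γ.apply_symm_apply]⟩
    have hcardI : (Set.range fun p : E => μ (c * (p : G) * c⁻¹) + μ (p : G)).ncard =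
        2 ^ H5.rk g := by
      rw [hrange, Set.ncard_image_of_injective _ coords.injective, ← Nat.card_coe_set_eq]
      show Nat.card (H5.resid g) = _
      rw [Module.natCard_eq_pow_finrank (K := ZMod 2) (V := H5.resid g), Nat.card_zmod]
      rfl
    rcases hrk with e' | e' <;> rw [hcardI, e']
    · exact Or.inl rfl
    · exact Or.inr rfl
  · have h1 := Q.card_mul_index
    rw [Subgroup.index_eq_card, Nat.card_congr e.toEquiv, card_Omega_six, hcard] at h1
    rw [← h1]
    norm_num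
  · obtain ⟨g, ⟨hgC, hgQ⟩, hne⟩ := hnwc
    exact ⟨g, ⟨_, hgQ, rfl⟩, hne⟩

end Cfsg.Agent.H53.Suz
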