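import Cfsg.Agent.H53.Suz.Frame

/-!
Multiplication in the radical of the four-group: commutators and squares in coordinates.
-/

set_option autoImplicit false

namespace Cfsg.Agent.H53.Suz

open H18 H18.OrthPair

variable {G : Type*} [Group G] [Finite G]

namespace Frame

variable {F : Subgroup G} {z g : G} {μ : G → V} (K : Frame F z μ g)
include K

theorem lev_P {c p : G} {h : W → W} (hc : K.IsLev c h) (hp : p ∈ P F z g) :
    c * p * c⁻¹ ∈ P F z g ∧ K.wc (c * p * c⁻¹) = h (K.wc p) := by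
  have hcz := (K.o.mem_CV_iff.mp hc.1).1
  have e : μ (c * p * c⁻¹) = ((μ p).1, h (μ p).2.1, (μ p).2.2) := by
    rw [K.S.ρ_eq hcz hp.1, hc.2]
  exact ⟨K.mem_P_iff.mpr ⟨K.o.CV_norm_F hc.1 hp.1, by rw [e]; exact (K.mem_P_iff.mp hp).2⟩,
    by rw [wc, e]⟩

theorem CV_P' {c r : G} (hc : c ∈ Subgroup.centralizer (four z g : Set G)) (hr : r ∈ P' F z g) :
    c * r * c⁻¹ ∈ P' F z g :=
  ⟨K.o.CV_norm_F' hc hr.1, Subgroup.mem_centralizer_singleton_iff.mpr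
    (K.o.mem_CV_iff.mp (mul_mem (mul_mem hc (K.o.P'_le hr)) (inv_mem hc))).1⟩

theorem CV_P {c p : G} (hc : c ∈ Subgroup.centralizer (four z g : Set G)) (hp : p ∈ P F z g) :
    c * p * c⁻¹ ∈ P F z g :=
  ⟨K.o.CV_norm_F hc hp.1, Subgroup.mem_centralizer_singleton_iff.mpr
    (K.o.mem_CV_iff.mp (mul_mem (mul_mem hc (K.o.P_le hp)) (inv_mem hc))).2⟩

theorem lev_φc {c r : G} {h : W → W} (hc : K.IsLev c h) (h0 : h 0 = 0) (hr : r ∈ P' F z g) :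
    K.φc (c * r * c⁻¹) = h (K.φc r) := by
  have hcz := (K.o.mem_CV_iff.mp hc.1).1
  have hrz := (K.o.mem_CV_iff.mp (K.o.P'_le hr)).1
  have hf : K.S.ρ c f₁ = f₁ := by rw [hc.2]; simp [f₁, h0]
  have hcrz : c * r * z = z * (c * r) := by rw [mul_assoc, hrz, ← mul_assoc, hcz, mul_assoc]
  rw [φc, K.S.ρ_mul hcrz (Setting.inv_cen hcz), K.S.ρ_inv hcz hf, K.S.ρ_mul hcz hrz, K.ρ_P' hr,
    hc.2, siegel_f]

/-- A commutator of `P'` with `P`, up to the `z`-exponent. -/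
theorem comm_mixed {r p : G} (hr : r ∈ P' F z g) (hp : p ∈ P F z g) :
    ∃ a, r * p * r⁻¹ * p⁻¹ = fr z g a (bW (K.φc r) (K.wc p)) := by
  have h1 := (K.o.comm_mem_inter (x := r) (y := p) (Subgroup.mem_sup_left hr)
    (Subgroup.mem_sup_right hp)).1
  rw [K.inter_eq] at h1
  obtain ⟨a, c, e⟩ := K.exists_fr h1
  refine ⟨a, ?_⟩
  have hrz := Subgroup.mem_centralizer_singleton_iff.mp hr.2
  have h2 : μ (r * p * r⁻¹ * p⁻¹) = c • e₁ := by rw [e, K.μ_fr]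
  rw [K.S.μ_mul _ (K.S.conj_F hrz hp.1) _ (inv_mem hp.1), K.S.μ_inv hp.1, K.S.ρ_eq hrz hp.1,
    K.ρ_P' hr] at h2
  have h3 := congrArg Prod.fst h2
  simp [siegel, e₁, (K.mem_P_iff.mp hp).2] at h3
  have h4 : ∀ x y d : ZMod 2, x + y + x = d → y = d := by decide
  rw [e, ← h4 _ _ _ h3, bW_comm]

/-- The `z`-exponent of a mixed commutator, on coordinates. -/
noncomputable def γ (φ w : W) : ZMod 2 :=
  (K.comm_mixed (K.φc_surj φ).choose_spec.1 (K.wc_surj w).choose_spec.1).choose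

theorem four_absorb_r {r r' p : G} (hr : r ∈ P' F z g) (hr' : r' ∈ P' F z g) (hp : p ∈ P F z g)
    (e : K.φc r = K.φc r') : r * p * r⁻¹ * p⁻¹ = r' * p * r'⁻¹ * p⁻¹ := by
  have h1 : r'⁻¹ * r ∈ four z g := by
    refine K.φc_eq_zero (mul_mem (inv_mem hr') hr) ?_
    rw [K.φc_mul (inv_mem hr') hr, K.φc_inv hr', e, add_self]
  have h2 := K.central (K.o.P_le hp) h1
  calc r * p * r⁻¹ * p⁻¹ = r' * ((r'⁻¹ * r) * p) * r⁻¹ * p⁻¹ := by group
    _ = r' * (p * (r'⁻¹ * r)) * r⁻¹ * p⁻¹ := by rw [h2]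
    _ = r' * p * r'⁻¹ * p⁻¹ := by group

theorem four_absorb_p {r p p' : G} (hr : r ∈ P' F z g) (hp : p ∈ P F z g) (hp' : p' ∈ P F z g)
    (e : K.wc p = K.wc p') : r * p * r⁻¹ * p⁻¹ = r * p' * r⁻¹ * p'⁻¹ := by
  have h1 : p'⁻¹ * p ∈ four z g := by
    refine K.wc_eq_zero (mul_mem (inv_mem hp') hp) ?_
    rw [K.wc_mul (inv_mem hp'.1) hp.1, wc, K.S.μ_inv hp'.1]
    exact (congrArg (fun x => (μ p').2.1 + x) e).trans (add_self _)
  have h2 := K.central (inv_mem (K.o.P'_le hr)) h1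
  calc r * p * r⁻¹ * p⁻¹ = r * p' * ((p'⁻¹ * p) * r⁻¹) * p⁻¹ := by group
    _ = r * p' * (r⁻¹ * (p'⁻¹ * p)) * p⁻¹ := by rw [h2]
    _ = r * p' * r⁻¹ * p'⁻¹ := by group

theorem γ_spec {r p : G} (hr : r ∈ P' F z g) (hp : p ∈ P F z g) :
    r * p * r⁻¹ * p⁻¹ = fr z g (K.γ (K.φc r) (K.wc p)) (bW (K.φc r) (K.wc p)) := by
  have h1 := (K.φc_surj (K.φc r)).choose_spec
  have h2 := (K.wc_surj (K.wc p)).choose_spec
  have h3 := (K.comm_mixed h1.1 h2.1).choose_spec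
  rw [K.four_absorb_r hr h1.1 hp h1.2.symm, K.four_absorb_p h1.1 hp h2.1 h2.2.2.symm, h3]
  exact congrArg (fr z g _) (congrArg₂ bW h1.2 h2.2.2)

theorem γ_add_left (φ φ' w : W) : K.γ (φ + φ') w = K.γ φ w + K.γ φ' w := by
  obtain ⟨r, hr, rfl⟩ := K.φc_surj φ
  obtain ⟨r', hr', rfl⟩ := K.φc_surj φ'
  obtain ⟨p, hp, -, rfl⟩ := K.wc_surj w
  have e1 := K.γ_spec (mul_mem hr hr') hp
  rw [show r * r' * p * (r * r')⁻¹ * p⁻¹ = r * (r' * p * r'⁻¹ * p⁻¹) * r⁻¹ * (r * p * r⁻¹ * p⁻¹) by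
    group, K.γ_spec hr hp, K.γ_spec hr' hp, K.central (K.o.P'_le hr) (K.fr_mem _ _),
    mul_inv_cancel_right, K.fr_mul, K.φc_mul hr hr'] at e1
  exact ((add_comm _ _).trans (K.fr_inj e1).1).symm

theorem γ_add_right (φ w w' : W) : K.γ φ (w + w') = K.γ φ w + K.γ φ w' := by
  obtain ⟨r, hr, rfl⟩ := K.φc_surj φ
  obtain ⟨p, hp, -, rfl⟩ := K.wc_surj w
  obtain ⟨p', hp', -, rfl⟩ := K.wc_surj w'
  have e1 := K.γ_spec hr (mul_mem hp hp')
  rw [show r * (p * p') * r⁻¹ * (p * p')⁻¹ =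
      (r * p * r⁻¹ * p⁻¹) * (p * (r * p' * r⁻¹ * p'⁻¹) * p⁻¹) by group,
    K.γ_spec hr hp, K.γ_spec hr hp', K.central (K.o.P_le hp) (K.fr_mem _ _),
    mul_inv_cancel_right, K.fr_mul, K.wc_mul hp.1 hp'.1] at e1
  exact (K.fr_inj e1).1.symm

theorem γ_inv {a b : W} (ha : qW a = 1) (hb : qW b = 1) (φ w : W) :
    K.γ (rW a (rW b φ)) (rW a (rW b w)) = K.γ φ w := by
  obtain ⟨c, hc⟩ := K.exists_lev ha hb
  obtain ⟨r, hr, rfl⟩ := K.φc_surj φ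
  obtain ⟨p, hp, -, rfl⟩ := K.wc_surj w
  obtain ⟨hp', ew⟩ := K.lev_P hc hp
  have e1 := K.γ_spec (K.CV_P' hc.1 hr) hp'
  rw [K.lev_φc hc (by simp [rW, bW]) hr, ew,
    show c * r * c⁻¹ * (c * p * c⁻¹) * (c * r * c⁻¹)⁻¹ * (c * p * c⁻¹)⁻¹ =
      c * (r * p * r⁻¹ * p⁻¹) * c⁻¹ by group, K.γ_spec hr hp,
    K.central hc.1 (K.fr_mem _ _), mul_inv_cancel_right] at e1
  exact (K.fr_inj e1).1.symm

/-- The vector representing `w ↦ γ φ w`. -/
noncomputable def γv (φ : W) : W :=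
  (K.γ φ (0, 1, 0, 0), K.γ φ (1, 0, 0, 0), K.γ φ (0, 0, 0, 1), K.γ φ (0, 0, 1, 0))

theorem γ_smul (φ : W) (a : ZMod 2) (w : W) : K.γ φ (a • w) = a * K.γ φ w := by
  rcases two_cases a with rfl | rfl
  · have h1 := K.γ_add_right φ 0 0
    rw [add_zero] at h1
    rw [zero_smul, zero_mul]
    exact (left_eq_add.mp h1)
  · rw [one_smul, one_mul]

theorem γ_eq (φ w : W) : K.γ φ w = bW (K.γv φ) w := by
  conv_lhs => rw [W_basis w]
  rw [K.γ_add_right, K.γ_add_right, K.γ_add_right, K.γ_smul, K.γ_smul, K.γ_smul, K.γ_smul]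
  simp only [bW, γv, φ₀, w₀]
  ring

theorem γv_add (φ φ' : W) : K.γv (φ + φ') = K.γv φ + K.γv φ' := by
  simp only [γv, K.γ_add_left, Prod.mk_add_mk]

theorem γv_inv {a b : W} (ha : qW a = 1) (hb : qW b = 1) (φ : W) :
    K.γv (rW a (rW b φ)) = rW a (rW b (K.γv φ)) := by
  set x := K.γv (rW a (rW b φ)) + rW a (rW b (K.γv φ)) with hx
  have h0 : x = 0 := by
    refine bW_nondeg x fun y => ?_
    have hinv : ∀ a' w : W, qW a' = 1 → rW a' (rW a' w) = w := by decide +kernel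
    have hy : y = rW a (rW b (rW b (rW a y))) := by rw [hinv b _ hb, hinv a _ ha]
    rw [hx, bW_add, hy, ← K.γ_eq, K.γ_inv ha hb, bW_rW a ha, bW_rW b hb, ← K.γ_eq]
    have h2 : ∀ d : ZMod 2, d + d = 0 := by decide
    exact h2 _
  calc K.γv (rW a (rW b φ)) = x + rW a (rW b (K.γv φ)) := by rw [hx, add_assoc, add_self, add_zero]
    _ = _ := by rw [h0, zero_add]

theorem γv_fixed {a : W} (ha : qW a = 1) : K.γv a = 0 ∨ K.γv a = a := by
  refine fixed_of_stab a _ ha fun c hc hca d hd hda => ?_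
  rw [← K.γv_inv hc hd]
  congr 1
  simp [rW, bW_comm a c, bW_comm a d, hca, hda]

theorem γv_zero : K.γv 0 = 0 := by
  have h1 := K.γv_add 0 0
  rw [add_zero] at h1
  exact left_eq_add.mp h1

theorem γv_cases : (∀ φ, K.γv φ = 0) ∨ (∀ φ, K.γv φ = φ) := by
  have hns : ∀ φ, qW φ = 1 → (K.γv φ = 0 ↔ K.γv φ₀ = 0) := by
    intro φ hφ
    obtain ⟨a, ha, b, hb, e⟩ := nonsing_transitive φ hφ
    have h1 := K.γv_inv ha hb φ
    rw [e] at h1
    constructor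
    · intro h
      rw [h1, h]
      simp [rW, bW]
    · intro h
      rcases K.γv_fixed hφ with h' | h'
      · exact h'
      · rw [h', e, h] at h1
        exact absurd h1 (by decide)
  have hspan : ∀ (f : W → W), (∀ x y, f (x + y) = f x + f y) → f 0 = 0 →
      (∀ φ, qW φ = 1 → K.γv φ = f φ) → ∀ φ, K.γv φ = f φ := by
    intro f hf hf0 h φ
    rcases nonsing_span φ with rfl | h' | ⟨a, ha, ha'⟩
    · rw [K.γv_zero, hf0]
    · exact h φ h'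
    · have e : φ = (φ + a) + a := by rw [add_assoc, add_self, add_zero]
      rw [e, K.γv_add, hf, h _ ha', h _ ha]
  by_cases h0 : K.γv φ₀ = 0
  · exact Or.inl (hspan (fun _ => 0) (fun _ _ => (add_zero _).symm) rfl
      fun φ hφ => (hns φ hφ).mpr h0)
  · exact Or.inr (hspan id (fun _ _ => rfl) rfl
      fun φ hφ => (K.γv_fixed hφ).resolve_left fun e => h0 ((hns φ hφ).mp e))

/-- The mixed commutators are not all in `⟨b⟩`. -/
theorem γv_ne : ¬ ∀ φ, K.γv φ = 0 := by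
  intro h0
  have hfix : ∀ p ∈ P F z g, ∀ w ∈ P' F z g, w⁻¹ * (p * w * p⁻¹) ∈ Subgroup.zpowers (bb z g) := by
    intro p hp w hw
    have e : w⁻¹ * (p * w * p⁻¹) = w⁻¹ * p * w⁻¹⁻¹ * p⁻¹ := by group
    rw [e, K.γ_spec (inv_mem hw) hp, K.γ_eq, h0, show bW 0 (K.wc p) = 0 by simp [bW], fr, tw_zero,
      one_mul]
    exact tw_mem _ _
  obtain ⟨v, hv, hvb, hvz⟩ := K.o.exists_v
  have hpb : ∀ p ∈ P F z g, p * bb z g = bb z g * p := fun p hp =>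
    Subgroup.mem_centralizer_singleton_iff.mp hp.2
  have hd : ∀ p ∈ P F z g, v⁻¹ * (p * v * p⁻¹) ∈ four z g := by
    intro p hp
    have h1 := K.o.h'.disp_centralizes (hpb p hp) inf_le_left (hfix p hp) hv
    rw [← K.o.h'.double (four z g) K.four_le_F' K.o.b_mem_four]
    refine ⟨h1.1, fun y hy => h1.2 y ⟨hy.1, Subgroup.mem_centralizer_singleton_iff.mpr ?_⟩⟩
    exact (hy.2 _ K.o.z_mem_four).symm
  have htriv : ∀ p ∈ P F z g, v⁻¹ * (p * v * p⁻¹) ∈ Subgroup.zpowers (bb z g) → p ∈ four z g := by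
    intro p hp hpv
    rw [← K.inter_eq]
    refine ⟨hp.1, K.o.h'.mem_of_disp (hpb p hp) ?_⟩
    have hle : F' F g ≤ K.o.h'.fixSub p (Subgroup.zpowers (bb z g)) (Subgroup.mem_zpowers _)
        K.o.h'.zp_le := by
      intro q hq
      rcases K.o.mem_P'_or hv hvz hq with h | h
      · exact ⟨hq, hfix p hp q h⟩
      · have h3 := mul_mem
          (show v ∈ K.o.h'.fixSub p (Subgroup.zpowers (bb z g)) (Subgroup.mem_zpowers _)
            K.o.h'.zp_le from ⟨hv, hpv⟩)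
          (show v⁻¹ * q ∈ K.o.h'.fixSub p (Subgroup.zpowers (bb z g)) (Subgroup.mem_zpowers _)
            K.o.h'.zp_le from ⟨h.1, hfix p hp _ h⟩)
        rwa [mul_inv_cancel_left] at h3
    exact fun q hq => (hle hq).2
  have h2 : ∀ p ∈ P F z g, p ∉ four z g →
      ∃ c, v⁻¹ * (p * v * p⁻¹) = fr z g 1 c := by
    intro p hp hp4
    obtain ⟨a, c, e⟩ := K.exists_fr (hd p hp)
    rcases two_cases a with rfl | rfl
    · exact absurd (htriv p hp (by rw [e, fr, tw_zero, one_mul]; exact tw_mem _ _)) hp4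
    · exact ⟨c, e⟩
  have h3 : Nat.card (P F z g) ≤ 2 * Nat.card (four z g) := by
    refine H18.card_le_two_mul fun a ha b hb ha4 hb4 => htriv _ (mul_mem (inv_mem ha) hb) ?_
    obtain ⟨c, ea⟩ := h2 a ha ha4
    obtain ⟨d, eb⟩ := h2 b hb hb4
    have ea' : a * v * a⁻¹ = v * fr z g 1 c := by rw [← ea]; group
    have eb' : b * v * b⁻¹ = v * fr z g 1 d := by rw [← eb]; group
    have e : v⁻¹ * (a⁻¹ * b * v * (a⁻¹ * b)⁻¹) =
        v⁻¹ * (a⁻¹ * (a * v * a⁻¹) * ((fr z g 1 c)⁻¹ * fr z g 1 d) * a) := by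
      rw [show a⁻¹ * b * v * (a⁻¹ * b)⁻¹ = a⁻¹ * (b * v * b⁻¹) * a by group, eb', ea']
      group
    rw [e, mul_assoc (a⁻¹ * (a * v * a⁻¹)),
      ← K.central (K.o.P_le ha) (mul_mem (inv_mem (K.fr_mem _ _)) (K.fr_mem _ _)), K.fr_inv,
      K.fr_mul, show (1 : ZMod 2) + 1 = 0 by decide]
    rw [show v⁻¹ * (a⁻¹ * (a * v * a⁻¹) * (a * fr z g 0 (c + d))) = fr z g 0 (c + d) by group,
      fr, tw_zero, one_mul]
    exact tw_mem _ _
  rw [K.card_P, K.card_four] at h3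
  omega

/-- The mixed commutator law. -/
theorem comm_rp {r p : G} (hr : r ∈ P' F z g) (hp : p ∈ P F z g) :
    r * p * r⁻¹ * p⁻¹ = fr z g (bW (K.φc r) (K.wc p)) (bW (K.φc r) (K.wc p)) := by
  rw [K.γ_spec hr hp, K.γ_eq, (K.γv_cases.resolve_left K.γv_ne)]

theorem sq_p {p : G} (hp : p ∈ P F z g) : p * p = fr z g (qW (K.wc p)) 0 := by
  rw [K.S.μ_sq p hp.1, K.qV_P hp, fr, tw_zero, mul_one]

theorem comm_pp {p q : G} (hp : p ∈ P F z g) (hq : q ∈ P F z g) :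
    p * q * p⁻¹ * q⁻¹ = fr z g (bW (K.wc p) (K.wc q)) 0 := by
  rw [K.S.μ_comm hp.1 hq.1, K.bV_P hp hq, fr, tw_zero, mul_one]

/-- Conjugation of an element of `P'` by one of `F` lying over `f₁`. -/
theorem conj_over_f {u r : G} (hu : u ∈ F) (hμ : μ u = f₁) (hr : r ∈ P' F z g) :
    ∃ p ∈ P F z g, K.wc p = K.φc r ∧ r * u * r⁻¹ = u * p := by
  have hrz := Subgroup.mem_centralizer_singleton_iff.mp hr.2
  have hm : u⁻¹ * (r * u * r⁻¹) ∈ F := mul_mem (inv_mem hu) (K.S.conj_F hrz hu)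
  have e : μ (u⁻¹ * (r * u * r⁻¹)) = (qW (K.φc r), K.φc r, 0) := by
    rw [K.S.μ_mul _ (inv_mem hu) _ (K.S.conj_F hrz hu), K.S.μ_inv hu, K.S.ρ_eq hrz hu, hμ,
      K.ρ_P' hr, siegel_f]
    simp [f₁, show (1 : ZMod 2) + 1 = 0 by decide]
  exact ⟨_, K.mem_P_iff.mpr ⟨hm, by rw [e]⟩, by rw [wc, e], by group⟩

theorem sq_r {r : G} (hr : r ∈ P' F z g) : r * r = fr z g 0 (qW (K.φc r)) := by
  obtain ⟨u, hu, hμ⟩ := K.S.μ_surj f₁
  obtain ⟨p, hp, hw, e⟩ := K.conj_over_f hu hμ hr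
  obtain ⟨c, hc⟩ : ∃ c, r * r = tw (bb z g) c := by
    rcases K.o.h'.pair (K.o.h'.sq hr.1) with h | h
    · exact ⟨0, by rw [h, tw_zero]⟩
    · exact ⟨1, by rw [h, tw_one]⟩
  suffices hcq : c = qW (K.φc r) by rw [hc, hcq, fr, tw_zero, one_mul]
  apply tw_inj K.S.h.xne
  have h1 : tw (bb z g) c * u * (tw (bb z g) c)⁻¹ * u⁻¹ = tw z c := by
    rw [K.S.μ_comm (K.four_le_F (K.tw_b_mem c)) hu, K.μ_tw_b, hμ, bV_f]
    simp [e₁]
  have hp2 : p * p = tw z (qW (K.φc r)) := by rw [K.S.μ_sq p hp.1, K.qV_P hp, hw]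
  rw [← h1, ← hc, show r * r * u * (r * r)⁻¹ * u⁻¹ =
      r * u * r⁻¹ * (r * (u⁻¹ * (r * u * r⁻¹)) * r⁻¹) * u⁻¹ by group, e, inv_mul_cancel_left,
    show r * p * r⁻¹ = r * p * r⁻¹ * p⁻¹ * p by group, K.comm_rp hr hp, hw, bW_self, K.fr_zero,
    one_mul, mul_assoc u p p, hp2, K.S.h.x_central hu (tw_mem _ _), mul_inv_cancel_right]

theorem comm_rr {r s : G} (hr : r ∈ P' F z g) (hs : s ∈ P' F z g) :
    r * s * r⁻¹ * s⁻¹ = fr z g 0 (bW (K.φc r) (K.φc s)) := by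
  have hsC := K.o.P'_le hs
  rw [show r * s * r⁻¹ * s⁻¹ = r * s * (r * s) * (s⁻¹ * ((r * r)⁻¹ * s⁻¹)) by group,
    K.sq_r (mul_mem hr hs), K.sq_r hr, K.fr_inv,
    ← K.central (inv_mem hsC) (K.fr_mem _ _), ← mul_assoc s⁻¹, ← mul_inv_rev s s, K.sq_r hs,
    K.fr_inv, K.fr_mul, K.fr_mul, K.φc_mul hr hs, qW_add]
  have h2 : ∀ a b c : ZMod 2, a + b + c + (b + a) = c := by decide
  rw [h2]
  rfl

end Frame

end Cfsg.Agent.H53.Suz
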